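import Cfsg.Agent.LocalEven.Amalgam
import Cfsg.Agent.FGS2.AmalgamMore
import Cfsg.Agent.Core.Residual
import Cfsg.Agent.LocalEven.Average
import Cfsg.Prelude.Def_LocalStructure
import Mathlib.GroupTheory.Nilpotent

/-!
In an amalgam pair the `O^p` of a vertex group acts nontrivially on the iterated closures `V^{(n)}`.
-/

set_option autoImplicit false
set_option linter.style.haveILetI false

open scoped commutatorElement

namespace Cfsg.Agent.Components.AmalgamVIter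

open Cfsg.Agent.LocalEven Cfsg.Agent.FGS2.Amalgam

variable {X : Type*} [Group X] {M₁ M₂ : Subgroup X} {p : ℕ}

/-- In a finite `p`-group a normal subgroup contained in `A ⊔ [V, Q]` and containing `A` equals `A`. -/
theorem eq_of_le_sup_commutator [Fact p.Prime] {Q V A : Subgroup X} [Finite Q] (hQ : IsPGroup p Q)
    (hVQ : V ≤ Q) (hAV : A ≤ V) (hQV : Q ≤ Subgroup.normalizer (V : Set X))
    (hQA : Q ≤ Subgroup.normalizer (A : Set X)) (h : V ≤ A ⊔ ⁅V, Q⁆) : V ≤ A := by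
  haveI hAn : (A.subgroupOf Q).Normal := Subgroup.normal_subgroupOf_of_le_normalizer hQA
  haveI hVn : (V.subgroupOf Q).Normal := Subgroup.normal_subgroupOf_of_le_normalizer hQV
  set π := QuotientGroup.mk' (A.subgroupOf Q) with hπ
  set N := (V.subgroupOf Q).map π with hN
  have hsurj : Function.Surjective π := QuotientGroup.mk'_surjective _
  have hN1 : N ≤ ⁅N, (⊤ : Subgroup (↥Q ⧸ A.subgroupOf Q))⁆ := by
    have h1 : V.subgroupOf Q ≤ A.subgroupOf Q ⊔ ⁅V.subgroupOf Q, (⊤ : Subgroup ↥Q)⁆ := by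
      rw [← Subgroup.map_le_map_iff_of_injective Q.subtype_injective, Subgroup.map_sup,
        Subgroup.map_commutator, Subgroup.subgroupOf_map_subtype, Subgroup.subgroupOf_map_subtype,
        ← MonoidHom.range_eq_map, Subgroup.range_subtype, inf_of_le_left hVQ,
        inf_of_le_left (hAV.trans hVQ)]
      exact h
    refine (Subgroup.map_mono h1).trans ?_
    rw [Subgroup.map_sup, Subgroup.map_commutator, Subgroup.map_top_of_surjective π hsurj,
      QuotientGroup.map_mk'_self, bot_sup_eq]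
  haveI : Group.IsNilpotent (↥Q ⧸ A.subgroupOf Q) := (hQ.to_quotient _).isNilpotent
  have hlow : ∀ k, N ≤ (⊤ : Subgroup (↥Q ⧸ A.subgroupOf Q)).lowerCentralSeries k := by
    intro k
    induction k with
    | zero => rw [Subgroup.lowerCentralSeries_zero]; exact le_top
    | succ k ih =>
      refine hN1.trans ((Subgroup.commutator_mono ih le_rfl).trans ?_)
      rw [Subgroup.lowerCentralSeries_succ]
  obtain ⟨k, hk⟩ := Subgroup.nilpotent_iff_lowerCentralSeries.mp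
    (inferInstance : Group.IsNilpotent (↥Q ⧸ A.subgroupOf Q))
  have hbot : N = ⊥ := le_bot_iff.mp (hk ▸ hlow k)
  intro v hv
  have h2 : (⟨v, hVQ hv⟩ : ↥Q) ∈ A.subgroupOf Q := by
    rw [← QuotientGroup.eq_one_iff]
    exact Subgroup.mem_bot.mp (hbot ▸ Subgroup.mem_map_of_mem π (show (⟨v, hVQ hv⟩ : ↥Q) ∈ V.subgroupOf Q from hv))
  exact h2

theorem dist_smul_le (hconn : (Cfsg.cosetGraph M₁ M₂).Connected) (g : X) (a b : Cfsg.CosetVertex M₁ M₂) :
    (Cfsg.cosetGraph M₁ M₂).dist (g • a) (g • b) ≤ (Cfsg.cosetGraph M₁ M₂).dist a b := by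
  obtain ⟨w, hw⟩ := hconn.exists_walk_length_eq_dist a b
  rw [← hw, ← SimpleGraph.Walk.length_map (smulHom g) w]
  exact SimpleGraph.dist_le _

theorem dist_smul (hconn : (Cfsg.cosetGraph M₁ M₂).Connected) (g : X) (a b : Cfsg.CosetVertex M₁ M₂) :
    (Cfsg.cosetGraph M₁ M₂).dist (g • a) (g • b) = (Cfsg.cosetGraph M₁ M₂).dist a b := by
  refine le_antisymm (dist_smul_le hconn g a b) ?_
  have h := dist_smul_le hconn g⁻¹ (g • a) (g • b)
  rwa [inv_smul_smul, inv_smul_smul] at h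

theorem cj_vertexZ_le [Fact p.Prime] (h : Cfsg.IsCharPAmalgamPair p M₁ M₂) (g : X)
    (δ : Cfsg.CosetVertex M₁ M₂) : cj g (Cfsg.vertexZ p δ) ≤ Cfsg.vertexZ p (g • δ) := by
  rw [Cfsg.vertexZ, Cfsg.sylowCenterClosure, cj, Subgroup.map_iSup]
  refine iSup_le fun S => ?_
  have h1 := (sylow_isMaxP S).cj g
  rw [← stab_smul] at h1
  have h2 := omega_le_vertexZ h1
  rw [omega_cj] at h2
  exact h2

theorem cj_vIter_le [Fact p.Prime] (h : Cfsg.IsCharPAmalgamPair p M₁ M₂) (g : X) (n : ℕ)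
    (δ : Cfsg.CosetVertex M₁ M₂) :
    cj g (Cfsg.vertexVIter p M₁ M₂ n δ) ≤ Cfsg.vertexVIter p M₁ M₂ n (g • δ) := by
  rw [Cfsg.vertexVIter, cj, Subgroup.map_iSup]
  refine iSup_le fun ν => (cj_vertexZ_le h g ν).trans ?_
  exact le_iSup_of_le ⟨g • ν.1, by rw [dist_smul (connected_of_sup_eq_top h.1.1)]; exact ν.2⟩ le_rfl

theorem stab_le_normalizer_vIter [Fact p.Prime] (h : Cfsg.IsCharPAmalgamPair p M₁ M₂) (n : ℕ)
    (δ : Cfsg.CosetVertex M₁ M₂) :
    MulAction.stabilizer X δ ≤ Subgroup.normalizer (Cfsg.vertexVIter p M₁ M₂ n δ : Set X) := by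
  intro g hg
  rw [← cj_eq_self_iff]
  refine le_antisymm ?_ ?_
  · have := cj_vIter_le h g n δ
    rwa [show g • δ = δ from hg] at this
  · have h1 := cj_vIter_le h g⁻¹ n δ
    rw [show g⁻¹ • δ = δ from (MulAction.stabilizer X δ).inv_mem hg] at h1
    have h2 := cj_mono (g := g) h1
    rwa [cj_cj, mul_inv_cancel, cj_one] at h2

theorem vIter_le_of_adj [Fact p.Prime] (h : Cfsg.IsCharPAmalgamPair p M₁ M₂) {δ ν : Cfsg.CosetVertex M₁ M₂}
    (hν : (Cfsg.cosetGraph M₁ M₂).Adj δ ν) {m n : ℕ} (hmn : m + 1 ≤ n) :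
    Cfsg.vertexVIter p M₁ M₂ m ν ≤ Cfsg.vertexVIter p M₁ M₂ n δ := by
  refine iSup_le fun η => le_iSup_of_le ⟨η.1, ?_⟩ le_rfl
  have h1 := (connected_of_sup_eq_top h.1.1).dist_triangle (u := δ) (v := ν) (w := η.1)
  rw [SimpleGraph.dist_eq_one_iff_adj.mpr hν] at h1
  have := η.2
  omega

theorem exists_adj (δ : Cfsg.CosetVertex M₁ M₂) : ∃ μ, (Cfsg.cosetGraph M₁ M₂).Adj δ μ := by
  obtain ⟨z, rfl | rfl⟩ := exists_smul_base δ
  · exact ⟨_, adj_smul z adj_base⟩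
  · exact ⟨_, adj_smul z adj_base.symm⟩

theorem vIter_ne_bot [hp : Fact p.Prime] (h : Cfsg.IsCharPAmalgamPair p M₁ M₂) (n : ℕ)
    (δ : Cfsg.CosetVertex M₁ M₂) : Cfsg.vertexVIter p M₁ M₂ n δ ≠ ⊥ := by
  haveI := finite_stab h δ
  have hdvd : p ∣ Nat.card (MulAction.stabilizer X δ) := by
    obtain ⟨z, rfl | rfl⟩ := exists_smul_base δ <;> rw [stab_smul]
    · rw [stab_vL, Subgroup.card_map_of_injective (MulAut.conj z).injective]; exact h.2.2.2.1
    · rw [stab_vR, Subgroup.card_map_of_injective (MulAut.conj z).injective]; exact h.2.2.2.2.1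
  obtain ⟨S⟩ := (inferInstance : Nonempty (Sylow p (MulAction.stabilizer X δ)))
  haveI : Nontrivial ↥(S : Subgroup (MulAction.stabilizer X δ)) :=
    (Subgroup.nontrivial_iff_ne_bot _).mpr (S.ne_bot_of_dvd_card hdvd)
  haveI : Nontrivial (Subgroup.center ↥(S : Subgroup (MulAction.stabilizer X δ))) :=
    S.isPGroup'.center_nontrivial
  obtain ⟨k, hk⟩ := (S.isPGroup'.to_subgroup (Subgroup.center _)).exists_card_eq
  have hd : p ∣ Nat.card (Subgroup.center ↥(S : Subgroup (MulAction.stabilizer X δ))) := by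
    rw [hk]
    refine dvd_pow_self p fun h0 => ?_
    rw [h0, pow_zero] at hk
    exact absurd hk (Finite.one_lt_card.ne')
  obtain ⟨z, hz⟩ := exists_prime_orderOf_dvd_card' p hd
  intro hbot
  set T := (S : Subgroup (MulAction.stabilizer X δ)).map (MulAction.stabilizer X δ).subtype with hT
  set z' : X := (((z : ↥(S : Subgroup (MulAction.stabilizer X δ))) : MulAction.stabilizer X δ) : X) with hz'
  have hz'o : orderOf z' = p := by
    rw [hz', Subgroup.orderOf_coe, Subgroup.orderOf_coe, Subgroup.orderOf_coe, hz]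
  have hzZ : z' ∈ Cfsg.vertexVIter p M₁ M₂ n δ := by
    refine (le_iSup (fun μ : {μ // (Cfsg.cosetGraph M₁ M₂).dist δ μ ≤ n} => Cfsg.vertexZ p μ.1) ⟨δ, by simp⟩)
      (omega_le_vertexZ (sylow_isMaxP S) (Subgroup.subset_closure ⟨Subgroup.mem_inf.mpr
        ⟨⟨_, (z : ↥(S : Subgroup (MulAction.stabilizer X δ))).2, rfl⟩, Subgroup.mem_centralizer_iff.mpr ?_⟩, ?_⟩))
    · rintro _ ⟨a, ha, rfl⟩
      exact congrArg (fun t : ↥(S : Subgroup (MulAction.stabilizer X δ)) => ((t : MulAction.stabilizer X δ) : X))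
        (Subgroup.mem_center_iff.mp z.2 ⟨a, ha⟩)
    · rw [← hz'o, pow_orderOf_eq_one]
  rw [hbot, Subgroup.mem_bot] at hzZ
  rw [hzZ, orderOf_one] at hz'o
  exact hp.out.one_lt.ne hz'o

/-- `V^{(n)}` is generated by the conjugates of `V^{(n-1)}` of a neighbour. -/
theorem vIter_le_iSup [Fact p.Prime] (h : Cfsg.IsCharPAmalgamPair p M₁ M₂) (n : ℕ)
    (δ : Cfsg.CosetVertex M₁ M₂) {W : Subgroup X}
    (hW : ∀ ν, (Cfsg.cosetGraph M₁ M₂).Adj δ ν → Cfsg.vertexVIter p M₁ M₂ n ν ≤ W) :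
    Cfsg.vertexVIter p M₁ M₂ (n + 1) δ ≤ W := by
  haveI := finite_stab h δ
  have hconn := connected_of_sup_eq_top h.1.1
  refine iSup_le fun η => ?_
  obtain ⟨η, hη⟩ := η
  obtain ⟨w, hw⟩ := hconn.exists_walk_length_eq_dist δ η
  cases w with
  | nil =>
    -- the vertex itself
    obtain ⟨μ, hμ⟩ := exists_adj δ
    obtain ⟨T, hT, -⟩ := exists_isMaxP_le (p := p) (P := (⊥ : Subgroup X))
      (K := Cfsg.edgeStabilizer δ μ) IsPGroup.of_bot bot_le
    have hTδ := isMaxP_stab h hμ hT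
    refine iSup_le fun S => ?_
    set T' := (S : Subgroup (MulAction.stabilizer X δ)).map (MulAction.stabilizer X δ).subtype with hT'
    obtain ⟨S₀, hS₀⟩ := hTδ.exists_sylow
    obtain ⟨g, hg⟩ := MulAction.exists_smul_eq (MulAction.stabilizer X δ) S₀ S
    have hST : T' = cj (g : X) T := by
      rw [hT', ← hg, ← hS₀]
      ext x
      constructor
      · rintro ⟨_, ⟨y, hy, rfl⟩, rfl⟩
        exact ⟨y, ⟨y, hy, rfl⟩, rfl⟩
      · rintro ⟨_, ⟨y, hy, rfl⟩, rfl⟩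
        exact ⟨_, ⟨y, hy, rfl⟩, rfl⟩
    have hadj := adj_smul (g : X) hμ
    rw [show (g : X) • δ = δ from g.2] at hadj
    have hTμ : IsMaxP p T (MulAction.stabilizer X μ) := by
      refine isMaxP_stab h hμ.symm (?_ : IsMaxP p T (Cfsg.edgeStabilizer μ δ))
      rwa [Cfsg.edgeStabilizer, inf_comm]
    have h1 := hTμ.cj (g : X)
    rw [← stab_smul, ← hST] at h1
    refine (omega_le_vertexZ h1).trans (le_trans ?_ (hW _ hadj))
    exact le_iSup_of_le (⟨(g : X) • μ, by simp⟩ : {ν // (Cfsg.cosetGraph M₁ M₂).dist ((g : X) • μ) ν ≤ n}) le_rfl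
  | @cons _ c _ hadj w' =>
    refine le_trans ?_ (hW c hadj)
    refine le_iSup_of_le ⟨η, ?_⟩ le_rfl
    have h1 := SimpleGraph.dist_le w'
    have h2 : (Cfsg.cosetGraph M₁ M₂).dist δ η ≤ n + 1 := hη
    rw [← hw, SimpleGraph.Walk.length_cons] at h2
    show (Cfsg.cosetGraph M₁ M₂).dist c η ≤ n
    omega

/-- If `O^p(L)` fixes `V^{(n)}` modulo `W` then `V^{(n)}` lies in `V^{(n-1)}_μ W` for every neighbour `μ`. -/
theorem vIter_le_sup [hp : Fact p.Prime] (h : Cfsg.IsSpeAmalgamPair p M₁ M₂) (n : ℕ)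
    {δ μ : Cfsg.CosetVertex M₁ M₂} (hμ : (Cfsg.cosetGraph M₁ M₂).Adj δ μ) (W : Subgroup X)
    (hW : ⁅Cfsg.vertexVIter p M₁ M₂ (n + 1) δ,
      (Cfsg.pResidual p ↥(Cfsg.pElementClosure p (MulAction.stabilizer X δ))).map
        (Cfsg.pElementClosure p (MulAction.stabilizer X δ)).subtype⁆ ≤ W) :
    Cfsg.vertexVIter p M₁ M₂ (n + 1) δ ≤ Cfsg.vertexVIter p M₁ M₂ n μ ⊔ W := by
  haveI := finite_stab h.1 δ
  refine vIter_le_iSup h.1 n δ fun ν hν => ?_
  obtain ⟨g, hg, rfl⟩ := pElementClosure_transitive h hμ hν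
  set L := Cfsg.pElementClosure p (MulAction.stabilizer X δ) with hL
  have hLG : L ≤ MulAction.stabilizer X δ := pElementClosure_le _
  haveI : Finite L := Finite.of_injective (Subgroup.inclusion hLG) (Subgroup.inclusion_injective _)
  obtain ⟨T, hT, -⟩ := exists_isMaxP_le (p := p) (P := (⊥ : Subgroup X))
    (K := Cfsg.edgeStabilizer δ μ) IsPGroup.of_bot bot_le
  have hTδ := isMaxP_stab h.1 hμ hT
  have hTL : T ≤ L := le_pElementClosure hTδ.2.1 hTδ.1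
  obtain ⟨S, hS⟩ := (hTδ.of_le hTL hLG).exists_sylow
  have htop : Cfsg.pResidual p ↥L ⊔ (S : Subgroup ↥L) = ⊤ := by
    rw [sup_comm]; exact Core.sylow_sup_pResidual S
  have hg' : (⟨g, hg⟩ : ↥L) ∈ ((Cfsg.pResidual p ↥L ⊔ (S : Subgroup ↥L) : Subgroup ↥L) : Set ↥L) := by
    rw [htop]; exact Subgroup.mem_top _
  rw [Subgroup.normal_mul] at hg'
  obtain ⟨o, ho, t, ht, hot⟩ := hg'
  have hg2 : g = (o : X) * (t : X) := (congrArg Subtype.val hot).symm
  have ht2 : (t : X) • μ = μ := by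
    have : (t : X) ∈ T := hS ▸ ⟨t, ht, rfl⟩
    exact (Subgroup.mem_inf.mp (hT.1 this)).2
  rw [hg2, mul_smul, ht2]
  intro x hx
  have hA : ((o : X))⁻¹ * x * (o : X) ∈ Cfsg.vertexVIter p M₁ M₂ n μ := by
    have h1 := cj_vIter_le h.1 (o : X)⁻¹ n ((o : X) • μ) ⟨x, hx, rfl⟩
    rw [inv_smul_smul] at h1
    simpa using h1
  set a := ((o : X))⁻¹ * x * (o : X)
  have hc : ⁅a, (o : X)⁆ ∈ W :=
    hW (Subgroup.commutator_mem_commutator (vIter_le_of_adj h.1 hμ le_rfl hA) ⟨o, ho, rfl⟩)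
  have hx' : x = ⁅(o : X), a⁆ * a := by
    simp only [commutatorElement_def, a]; group
  rw [hx']
  refine Subgroup.mul_mem _ (Subgroup.mem_sup_right ?_) (Subgroup.mem_sup_left hA)
  rw [← commutatorElement_inv]
  exact W.inv_mem hc

/-- No `V^{(n)}` is the `V^{(n-1)}` of a neighbour. -/
theorem not_le_neighbour [hp : Fact p.Prime] (h : Cfsg.IsSpeAmalgamPair p M₁ M₂) (n : ℕ)
    {δ μ : Cfsg.CosetVertex M₁ M₂} (hμ : (Cfsg.cosetGraph M₁ M₂).Adj δ μ)
    (hVQ : Cfsg.vertexVIter p M₁ M₂ (n + 1) δ ≤ Cfsg.vertexQ p δ)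
    (hle : Cfsg.vertexVIter p M₁ M₂ (n + 1) δ ≤ Cfsg.vertexVIter p M₁ M₂ n μ) : False := by
  have heq := le_antisymm hle (vIter_le_of_adj h.1 hμ le_rfl)
  refine vIter_ne_bot h.1 (n + 1) δ (eq_bot_of_transitive h.1.1 hμ
    (le_inf (hVQ.trans (Subgroup.map_subtype_le _)) (hVQ.trans (vertexQ_le_stab h.1 hμ)))
    (fun ν hν => ?_) (fun ν hν => ?_))
  · obtain ⟨g, hg, hgν⟩ := exists_smul_neighbour hμ hν
    exact ⟨g, Subgroup.mem_inf.mpr ⟨stab_le_normalizer_vIter h.1 _ δ hg, hg⟩, hgν⟩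
  · obtain ⟨g, hg, hgν⟩ := exists_smul_neighbour hμ.symm hν
    refine ⟨g, Subgroup.mem_inf.mpr ⟨?_, hg⟩, hgν⟩
    rw [heq]
    exact stab_le_normalizer_vIter h.1 _ μ hg

theorem not_le_commutator_Q [hp : Fact p.Prime] (h : Cfsg.IsSpeAmalgamPair p M₁ M₂)
    (δ : Cfsg.CosetVertex M₁ M₂) (n : ℕ) (hn : 1 ≤ n)
    (hVQ : Cfsg.vertexVIter p M₁ M₂ n δ ≤ Cfsg.vertexQ p δ) :
    ¬ ⁅Cfsg.vertexVIter p M₁ M₂ n δ,
      (Cfsg.pResidual p ↥(Cfsg.pElementClosure p (MulAction.stabilizer X δ))).map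
        (Cfsg.pElementClosure p (MulAction.stabilizer X δ)).subtype⁆ ≤
      ⁅Cfsg.vertexVIter p M₁ M₂ n δ, Cfsg.vertexQ p δ⁆ := by
  intro hW
  obtain ⟨m, rfl⟩ : ∃ m, n = m + 1 := ⟨n - 1, by omega⟩
  obtain ⟨μ, hμ⟩ := exists_adj δ
  haveI := finite_stab h.1 δ
  have hQle : Cfsg.vertexQ p δ ≤ MulAction.stabilizer X δ := Subgroup.map_subtype_le _
  refine not_le_neighbour h m hμ hVQ (@eq_of_le_sup_commutator _ _ p _ _ _ _
    (Finite.of_injective (Subgroup.inclusion hQle) (Subgroup.inclusion_injective _)) ((Core.isPGroup_pCore p _).map _) hVQ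
    (vIter_le_of_adj h.1 hμ le_rfl) (hQle.trans (stab_le_normalizer_vIter h.1 _ δ))
    ((vertexQ_le_stab h.1 hμ).trans (stab_le_normalizer_vIter h.1 _ μ))
    (vIter_le_sup h m hμ _ hW))

theorem not_le_two_back [hp : Fact p.Prime] (h : Cfsg.IsSpeAmalgamPair p M₁ M₂)
    (δ : Cfsg.CosetVertex M₁ M₂) (n : ℕ) (hn : 2 ≤ n)
    (hVQ : Cfsg.vertexVIter p M₁ M₂ n δ ≤ Cfsg.vertexQ p δ) :
    ¬ ⁅Cfsg.vertexVIter p M₁ M₂ n δ,
      (Cfsg.pResidual p ↥(Cfsg.pElementClosure p (MulAction.stabilizer X δ))).map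
        (Cfsg.pElementClosure p (MulAction.stabilizer X δ)).subtype⁆ ≤
      Cfsg.vertexVIter p M₁ M₂ (n - 2) δ := by
  intro hW
  obtain ⟨m, rfl⟩ : ∃ m, n = m + 2 := ⟨n - 2, by omega⟩
  obtain ⟨μ, hμ⟩ := exists_adj δ
  rw [Nat.add_sub_cancel] at hW
  exact not_le_neighbour h (m + 1) hμ hVQ ((vIter_le_sup h (m + 1) hμ _ hW).trans
    (sup_le le_rfl (vIter_le_of_adj h.1 hμ.symm le_rfl)))

end Cfsg.Agent.Components.AmalgamVIter
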