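/-
The Brauer–Fowler index bound and its consequences.
-/
import Cfsg.Agent.Components.InvolutionCount
import Mathlib.Algebra.BigOperators.Ring.Finset

set_option autoImplicit false
set_option linter.style.haveILetI false

namespace Cfsg.Agent.Components

variable {G : Type*} [Group G]

/-- The extended centralizer of `x`. -/
def extCentralizer (x : G) : Subgroup G where
  carrier := {g | g * x * g⁻¹ = x ∨ g * x * g⁻¹ = x⁻¹}
  one_mem' := Or.inl (by simp)
  mul_mem' := by
    intro a b ha hb
    have e : a * b * x * (a * b)⁻¹ = a * (b * x * b⁻¹) * a⁻¹ := by group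
    simp only [Set.mem_setOf_eq] at ha hb ⊢
    rw [e]
    rcases hb with hb | hb <;> rw [hb]
    · exact ha
    · rw [← conj_inv]
      rcases ha with ha | ha <;> rw [ha]
      · exact Or.inr rfl
      · exact Or.inl (inv_inv x)
  inv_mem' := by
    intro a ha
    simp only [Set.mem_setOf_eq] at ha ⊢
    rcases ha with ha | ha
    · left
      conv_lhs => rw [← ha]
      group
    · right
      have h2 : a * x⁻¹ * a⁻¹ = x := by rw [← conj_inv, ha, inv_inv]
      conv_lhs => rw [← h2]
      group

theorem centralizer_le_extCentralizer (x : G) :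
    Subgroup.centralizer ({x} : Set G) ≤ extCentralizer x := fun g hg => Or.inl (by
  rw [mem_centralizer_singleton.mp hg, mul_inv_cancel_right])

theorem inverts_mem_extCentralizer {x t : G} (h : t * x * t⁻¹ = x⁻¹) : t ∈ extCentralizer x :=
  Or.inr h

theorem inverts_not_mem_centralizer {x t : G} (hx : x ^ 2 ≠ 1) (h : t * x * t⁻¹ = x⁻¹) :
    t ∉ Subgroup.centralizer ({x} : Set G) := fun ht => hx (by
  rw [mem_centralizer_singleton.mp ht, mul_inv_cancel_right] at h
  rw [sq]
  nth_rw 1 [h]
  rw [inv_mul_cancel])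

theorem sum_card_fibres [Fintype G] :
    ∑ x : G, Nat.card {p : G × G // orderOf p.1 = 2 ∧ orderOf p.2 = 2 ∧ p.1 * p.2 = x} =
      Nat.card {t : G // orderOf t = 2} * Nat.card {t : G // orderOf t = 2} := by
  classical
  rw [← Nat.card_prod, ← Nat.card_sigma]
  exact Nat.card_congr
    { toFun := fun s => (⟨s.2.1.1, s.2.2.1⟩, ⟨s.2.1.2, s.2.2.2.1⟩)
      invFun := fun q => ⟨q.1.1 * q.2.1, (q.1.1, q.2.1), q.1.2, q.2.2, rfl⟩
      left_inv := fun s => by
        obtain ⟨x, ⟨a, b⟩, ha, hb, rfl⟩ := s
        rfl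
      right_inv := fun q => rfl }

theorem exists_minimal_index [Finite G] [Nontrivial G] :
    ∃ H : Subgroup G, H ≠ ⊤ ∧ ∀ K : Subgroup G, K ≠ ⊤ → H.index ≤ K.index := by
  haveI : Nonempty {K : Subgroup G // K ≠ ⊤} := ⟨⟨⊥, bot_ne_top⟩⟩
  classical
  have hex : ∃ k, ∃ K : Subgroup G, K ≠ ⊤ ∧ K.index = k := ⟨_, ⊥, bot_ne_top, rfl⟩
  obtain ⟨H, hH, hHi⟩ := Nat.find_spec hex
  exact ⟨H, hH, fun K hK => hHi ▸ Nat.find_min' hex ⟨K, hK, rfl⟩⟩

/-- The Brauer–Fowler index bound. -/
theorem brauer_fowler_index [Finite G] (heven : Even (Nat.card G))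
    (hZ : Odd (Nat.card (Subgroup.center G))) :
    ∃ H : Subgroup G, H ≠ ⊤ ∧ (H.index = 2 ∨ 2 * H.index * (Nat.card {t : G // orderOf t = 2}) ^ 2 <
      Nat.card G * (Nat.card G + Nat.card {t : G // orderOf t = 2})) := by
  classical
  obtain ⟨t₀, ht₀⟩ := exists_involution heven
  haveI : Nontrivial G := ⟨t₀, 1, invol_ne_one ht₀⟩
  haveI := Fintype.ofFinite G
  by_cases h2 : ∃ H : Subgroup G, H.index = 2
  · obtain ⟨H, hH⟩ := h2
    exact ⟨H, fun h => by simp [h] at hH, Or.inl hH⟩
  push Not at h2
  obtain ⟨H, hHt, hmin⟩ := exists_minimal_index (G := G)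
  refine ⟨H, hHt, Or.inr ?_⟩
  set m := H.index with hm
  set g := Nat.card G with hg
  set n := Nat.card {t : G // orderOf t = 2} with hn
  have hm1 : 1 ≤ m := Nat.one_le_iff_ne_zero.mpr Subgroup.index_ne_zero_of_finite
  have hn1 : 1 ≤ n := by
    haveI : Nonempty {t : G // orderOf t = 2} := ⟨⟨t₀, ht₀⟩⟩
    exact Nat.card_pos
  set N : G → ℕ := fun x =>
    Nat.card {p : G × G // orderOf p.1 = 2 ∧ orderOf p.2 = 2 ∧ p.1 * p.2 = x} with hN
  have hcenter : ∀ t : G, orderOf t = 2 → t ∉ Subgroup.center G := fun t ht htc => by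
    have h3 : orderOf (⟨t, htc⟩ : Subgroup.center G) ∣ Nat.card (Subgroup.center G) :=
      orderOf_dvd_natCard _
    rw [Subgroup.orderOf_mk, ht] at h3
    exact Nat.not_even_iff_odd.mpr hZ (even_iff_two_dvd.mpr h3)
  -- the bound on each fibre
  have hinv : ∀ x : G, orderOf x = 2 → 2 * m * (N x + 2) ≤ 2 * g := by
    intro x hx
    have hCt : Subgroup.centralizer ({x} : Set G) ≠ ⊤ := fun h => hcenter x hx
      (Subgroup.mem_center_iff.mpr fun y => mem_centralizer_singleton.mp (h ▸ Subgroup.mem_top y))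
    calc 2 * m * (N x + 2) ≤ 2 * m * Nat.card (Subgroup.centralizer ({x} : Set G)) :=
          Nat.mul_le_mul_left _ (card_pairs_involution_add_two x hx)
      _ = 2 * (Nat.card (Subgroup.centralizer ({x} : Set G)) * m) := by ring
      _ ≤ 2 * (Nat.card (Subgroup.centralizer ({x} : Set G)) *
            (Subgroup.centralizer ({x} : Set G)).index) := by
          exact Nat.mul_le_mul_left _ (Nat.mul_le_mul_left _ (hmin _ hCt))
      _ = 2 * g := by rw [Subgroup.card_mul_index]
  have hother : ∀ x : G, x ≠ 1 → orderOf x ≠ 2 → 2 * m * N x ≤ g := by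
    intro x hx1 hx2
    have hxs : x ^ 2 ≠ 1 := fun h => hx2 (invol_of_mul_self (sq x ▸ h) hx1)
    by_cases hreal : IsConj x x⁻¹
    swap
    · have : N x = 0 := card_pairs_eq_zero x hreal
      simp [this]
    obtain ⟨t, ht⟩ := isConj_iff.mp hreal
    set C := Subgroup.centralizer ({x} : Set G)
    set E := extCentralizer x
    have htC := inverts_not_mem_centralizer hxs ht
    have hne : E ≠ ⊤ := fun hE => h2 C (by
      rw [Subgroup.index_eq_two_iff]
      refine ⟨t, fun b => ?_⟩
      by_cases hb : b ∈ C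
      · exact Or.inr ⟨hb, fun h => htC (by simpa using mul_mem (inv_mem hb) h)⟩
      · refine Or.inl ⟨mem_centralizer_singleton.mpr ?_, hb⟩
        have hbE : b ∈ E := hE ▸ Subgroup.mem_top b
        have hb' : b * x * b⁻¹ = x⁻¹ := by
          rcases hbE with h | h
          · exact absurd (mem_centralizer_singleton.mpr (mul_inv_eq_iff_eq_mul.mp h)) hb
          · exact h
        have e1 := mul_inv_eq_iff_eq_mul.mp ht
        have e2 : b * x⁻¹ = x * b := by
          have := congrArg (·⁻¹) hb'
          simp only [inv_inv, conj_inv] at this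
          exact mul_inv_eq_iff_eq_mul.mp this
        rw [mul_assoc, e1, ← mul_assoc, e2, mul_assoc])
    have hrel : 2 ≤ C.relIndex E := by
      have h0 : C.relIndex E ≠ 0 := Subgroup.index_ne_zero_of_finite
      have h1 : C.relIndex E ≠ 1 := fun h =>
        htC (Subgroup.relIndex_eq_one.mp h (inverts_mem_extCentralizer ht))
      omega
    have hCi : 2 * m ≤ C.index := by
      rw [← Subgroup.relIndex_mul_index (centralizer_le_extCentralizer x)]
      exact Nat.mul_le_mul hrel (hmin E hne)
    calc 2 * m * N x ≤ C.index * Nat.card C := Nat.mul_le_mul hCi (card_pairs_le x)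
      _ = g := Subgroup.index_mul_card C
  have hone : N 1 ≤ n := by
    refine Nat.card_le_card_of_injective (fun p => ⟨p.1.1, p.2.1⟩) ?_
    intro p q h
    have h1 : p.1.1 = q.1.1 := congrArg Subtype.val h
    refine Subtype.ext (Prod.ext h1 ?_)
    have h2 := p.2.2.2.trans q.2.2.2.symm
    rw [h1] at h2
    exact mul_left_cancel h2
  -- summing
  set I := (Finset.univ : Finset G).filter (fun x => orderOf x = 2) with hI
  have hIcard : I.card = n := by
    rw [hn, Nat.card_eq_fintype_card, Fintype.card_subtype]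
  set R := (Finset.univ.erase (1 : G)).filter (fun x => ¬ orderOf x = 2) with hR
  have hI' : (Finset.univ.erase (1 : G)).filter (fun x => orderOf x = 2) = I := by
    ext x
    simp only [hI, Finset.mem_filter, Finset.mem_erase, Finset.mem_univ, true_and, and_true]
    exact ⟨fun h => h.2, fun h => ⟨invol_ne_one h, h⟩⟩
  have hcardR : n + R.card + 1 = g := by
    have := Finset.card_filter_add_card_filter_not (s := Finset.univ.erase (1 : G))
      (fun x => orderOf x = 2)
    rw [hI', hIcard, Finset.card_erase_of_mem (Finset.mem_univ _), Finset.card_univ,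
      ← Nat.card_eq_fintype_card, ← hR, ← hg] at this
    have : 1 ≤ g := Nat.card_pos
    omega
  have hsum : n * n = N 1 + ((∑ x ∈ I, N x) + ∑ x ∈ R, N x) := by
    rw [hn, ← sum_card_fibres, ← hI', hR, Finset.sum_filter_add_sum_filter_not,
      Finset.add_sum_erase _ _ (Finset.mem_univ _)]
  have hsI : 2 * m * ((∑ x ∈ I, N x) + 2 * n) ≤ n * (2 * g) := by
    have h : ∑ x ∈ I, 2 * m * (N x + 2) ≤ ∑ x ∈ I, 2 * g :=
      Finset.sum_le_sum fun x hx => hinv x (Finset.mem_filter.mp hx).2
    rw [← Finset.mul_sum, Finset.sum_add_distrib, Finset.sum_const, Finset.sum_const, hIcard,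
      smul_eq_mul, smul_eq_mul, mul_comm n 2] at h
    exact h
  have hsR : 2 * m * (∑ x ∈ R, N x) ≤ R.card * g := by
    have h : ∑ x ∈ R, 2 * m * N x ≤ ∑ x ∈ R, g :=
      Finset.sum_le_sum fun x hx => by
        have hx' := Finset.mem_filter.mp hx
        exact hother x (Finset.mem_erase.mp hx'.1).1 hx'.2
    rw [← Finset.mul_sum, Finset.sum_const, smul_eq_mul] at h
    exact h
  nlinarith [Nat.mul_le_mul_left (2 * m) hone]

/-- A simple group with a subgroup of index `m > 1` embeds in `S_m`. -/
theorem card_dvd_factorial_index [Finite G] [IsSimpleGroup G] (H : Subgroup G) (hH : H ≠ ⊤) :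
    Nat.card G ∣ H.index.factorial := by
  have hcore : H.normalCore = ⊥ :=
    (inferInstance : H.normalCore.Normal).eq_bot_or_eq_top.resolve_right fun h =>
      hH (top_le_iff.mp (h ▸ H.normalCore_le))
  have hinj : Function.Injective (MulAction.toPermHom G (G ⧸ H)) := by
    rw [← MonoidHom.ker_eq_bot_iff, ← Subgroup.normalCore_eq_ker, hcore]
  have := Subgroup.card_dvd_of_injective _ hinj
  haveI hF := Fintype.ofFinite (G ⧸ H)
  classical
  rwa [Nat.card_eq_fintype_card (α := Equiv.Perm (G ⧸ H)), Fintype.card_perm,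
    ← Nat.card_eq_fintype_card] at this

end Cfsg.Agent.Components
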