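import Cfsg.Prelude.Def_GeometricClasses
import Mathlib

/-!
Eigenspaces of elements normalising an absolutely irreducible extraspecial group of matrices.
-/

set_option autoImplicit false
set_option linter.unusedSectionVars false

namespace Cfsg.Agent.Components.ExtraspecialEigen

open Module
open scoped commutatorElement

section Linear

variable {F V : Type*} [Field F] [AddCommGroup V] [Module F V] [FiniteDimensional F V]

theorem sum_finrank_le {ι : Type*} [DecidableEq ι] (s : Finset ι) {p : ι → Submodule F V}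
    (hp : iSupIndep p) {E : Submodule F V} (hle : ∀ i ∈ s, p i ≤ E) :
    ∑ i ∈ s, finrank F (p i) ≤ finrank F E := by
  have key : ∑ i ∈ s, finrank F (p i) = finrank F (s.sup p : Submodule F V) := by
    induction s using Finset.induction_on with
    | empty => rw [Finset.sum_empty, Finset.sup_empty, finrank_bot]
    | insert a s ha ih =>
      rw [Finset.sum_insert ha, Finset.sup_insert, ih fun i hi => hle i (Finset.mem_insert_of_mem hi)]
      have hd : Disjoint (p a) (s.sup p) :=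
        Disjoint.mono_right (Finset.sup_le fun i hi =>
          le_iSup₂_of_le i (show i ≠ a by intro h; rw [h] at hi; exact ha hi) le_rfl) (hp a)
      have := Submodule.finrank_sup_add_finrank_inf_eq (p a) (s.sup p)
      rw [hd.eq_bot, finrank_bot] at this
      omega
  rw [key]
  exact Submodule.finrank_mono (Finset.sup_le hle)

theorem finrank_sup_finset_le {ι : Type*} [DecidableEq ι] (s : Finset ι) (p : ι → Submodule F V) :
    finrank F (s.sup p : Submodule F V) ≤ ∑ i ∈ s, finrank F (p i) := by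
  induction s using Finset.induction_on with
  | empty => simp
  | insert a s ha ih =>
    rw [Finset.sum_insert ha, Finset.sup_insert]
    have := Submodule.finrank_sup_add_finrank_inf_eq (p a) (s.sup p)
    omega

theorem finrank_le_of_mapsTo {f : End F V} (hf : Function.Injective f) {A B : Submodule F V}
    (h : ∀ v ∈ A, f v ∈ B) : finrank F A ≤ finrank F B :=
  (LinearEquiv.finrank_eq (Submodule.equivMapOfInjective f hf A)).le.trans
    (Submodule.finrank_mono (Submodule.map_le_iff_le_comap.2 h))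

/-- If `Z` multiplies the eigenvalues of `H` on `E` by `ζ`, an eigenspace takes at most one part in
`orderOf ζ`. -/
theorem order_mul_finrank_le {H Z : End F V} {ζ : F} (hζ : 0 < orderOf ζ) (hZ : Function.Injective Z)
    {E : Submodule F V} (hE : ∀ v ∈ E, Z v ∈ E) (hHZ : ∀ v ∈ E, H (Z v) = ζ • Z (H v))
    {c : F} (hc : c ≠ 0) :
    orderOf ζ * finrank F (E ⊓ End.eigenspace H c : Submodule F V) ≤ finrank F E := by
  classical
  set p : Fin (orderOf ζ) → Submodule F V := fun i => E ⊓ End.eigenspace H (c * ζ ^ (i : ℕ))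
  have hμ : Function.Injective fun i : Fin (orderOf ζ) => c * ζ ^ (i : ℕ) := fun i j h =>
    Fin.ext (pow_injOn_Iio_orderOf (Set.mem_Iio.2 i.2) (Set.mem_Iio.2 j.2) (mul_left_cancel₀ hc h))
  have hp : iSupIndep p :=
    ((End.eigenspaces_iSupIndep H).comp hμ).mono fun i => inf_le_right
  have hstep : ∀ k : ℕ, finrank F (E ⊓ End.eigenspace H c : Submodule F V) ≤
      finrank F (E ⊓ End.eigenspace H (c * ζ ^ k) : Submodule F V) := by
    intro k
    induction k with
    | zero => rw [pow_zero, mul_one]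
    | succ k ih =>
      refine ih.trans (finrank_le_of_mapsTo hZ fun v hv => ⟨hE v hv.1, ?_⟩)
      rw [SetLike.mem_coe, End.mem_eigenspace_iff, hHZ v hv.1, End.mem_eigenspace_iff.1 hv.2,
        map_smul, smul_smul, pow_succ]
      ring_nf
  calc orderOf ζ * _ = ∑ _i : Fin (orderOf ζ), finrank F (E ⊓ End.eigenspace H c : Submodule F V) := by
        simp
    _ ≤ ∑ i : Fin (orderOf ζ), finrank F (p i) := Finset.sum_le_sum fun i _ => hstep i
    _ ≤ _ := sum_finrank_le _ hp fun i _ => inf_le_left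

/-- An invariant subspace of a linear map with `Y ^ r = 1` is the sum of its eigenspaces. -/
theorem le_sup_eigen {Y : End F V} {r : ℕ} (hr : (r : F) ≠ 0) {ω : F} (hω : IsPrimitiveRoot ω r)
    (hY : Y ^ r = 1) {W : Submodule F V} (hW : ∀ v ∈ W, Y v ∈ W) :
    W ≤ (Finset.range r).sup fun i => W ⊓ End.eigenspace Y (ω ^ i) := by
  intro v hv
  have hr0 : r ≠ 0 := fun h => hr (by simp [h])
  have hω0 : ω ≠ 0 := hω.ne_zero hr0
  have hpow : ∀ k, (Y ^ k) v ∈ W := by
    intro k
    induction k with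
    | zero => rw [pow_zero]; exact hv
    | succ k ih => rw [pow_succ', End.mul_apply]; exact hW _ ih
  have hsum : (r : F) • v = ∑ i ∈ Finset.range r, ∑ j ∈ Finset.range r, ((ω⁻¹) ^ i) ^ j • (Y ^ j) v := by
    rw [Finset.sum_comm]
    simp only [← Finset.sum_smul]
    rw [Finset.sum_eq_single_of_mem 0 (Finset.mem_range.2 (by omega))]
    · simp
    intro j hj hj0
    have h1 : (ω⁻¹) ^ j ≠ 1 := by
      rw [inv_pow, inv_ne_one]
      exact hω.pow_ne_one_of_pos_of_lt hj0 (Finset.mem_range.1 hj)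
    have : ∑ i ∈ Finset.range r, ((ω⁻¹) ^ i) ^ j = 0 := by
      rw [Finset.sum_congr rfl (fun i _ => show ((ω⁻¹) ^ i) ^ j = ((ω⁻¹) ^ j) ^ i by
        rw [← pow_mul, mul_comm, pow_mul]), geom_sum_eq h1, ← pow_mul, mul_comm, pow_mul, inv_pow, hω.pow_eq_one, inv_one, one_pow,
        sub_self, zero_div]
    rw [this, zero_smul]
  have hv' : v = ∑ i ∈ Finset.range r,
      (r : F)⁻¹ • ∑ j ∈ Finset.range r, ((ω⁻¹) ^ i) ^ j • (Y ^ j) v := by
    rw [← Finset.smul_sum, ← hsum, inv_smul_smul₀ hr]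
  rw [hv']
  refine Submodule.sum_mem _ fun i hi => (Finset.le_sup (f := fun i => W ⊓ End.eigenspace Y (ω ^ i)) hi)
    (Submodule.smul_mem _ _ ⟨Submodule.sum_mem _ fun j _ => Submodule.smul_mem _ _ (hpow j), ?_⟩)
  rw [SetLike.mem_coe, End.mem_eigenspace_iff, map_sum]
  set f : ℕ → V := fun j => ((ω⁻¹) ^ i) ^ j • (Y ^ j) v
  have hY' : ∀ j, Y (f j) = ω ^ i • f (j + 1) := fun j => by
    show Y (((ω⁻¹) ^ i) ^ j • (Y ^ j) v) = ω ^ i • (((ω⁻¹) ^ i) ^ (j + 1) • (Y ^ (j + 1)) v)
    rw [map_smul, smul_smul, pow_succ' Y, End.mul_apply]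
    congr 1
    rw [pow_succ', ← mul_assoc, ← mul_pow, mul_inv_cancel₀ hω0, one_pow, one_mul]
  show ∑ j ∈ Finset.range r, Y (f j) = ω ^ i • ∑ j ∈ Finset.range r, f j
  simp only [hY', ← Finset.smul_sum]
  congr 1
  have hcyc : f r = f 0 := by
    show ((ω⁻¹) ^ i) ^ r • (Y ^ r) v = ((ω⁻¹) ^ i) ^ 0 • (Y ^ 0) v
    rw [← pow_mul, mul_comm, pow_mul, inv_pow, hω.pow_eq_one, hY]
    simp
  have h1 := Finset.sum_range_succ f r
  have h2 := Finset.sum_range_succ' f r
  rw [h1, hcyc] at h2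
  exact (add_right_cancel h2).symm

end Linear

section Ring

/-- Ring step of the polarisation argument. -/
theorem eq_one_of_relation {A : Type*} [Ring A] {T Ti : A} {r ϖ : ℕ} (hinv : Ti * T = 1)
    (hinv' : T * Ti = 1) (hr : (r : A) = 0) (hcop : r.Coprime ϖ) (hodd : Odd ϖ) (hT : T ^ ϖ = 1)
    (h : (Ti - 1) * (T - Ti) * (T - 1) = 0) : T = 1 := by
  set f := T - 1 with hf
  have h3 : f * f * f * (T + 1) = 0 := by
    have := congrArg (T * T * ·) h
    simp only [mul_zero] at this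
    have e2 : T * (T * (Ti * Ti)) = 1 := by rw [← mul_assoc T Ti Ti, hinv', one_mul, hinv']
    rw [← neg_eq_zero, ← this, hf]
    noncomm_ring [hinv, hinv', e2]
  have hTh : T * (f * f * f) = -(f * f * f) := by
    rw [← add_eq_zero_iff_eq_neg, ← h3, hf]
    noncomm_ring
  have hpow : ∀ k : ℕ, T ^ k * (f * f * f) = (-1) ^ k * (f * f * f) := by
    intro k
    induction k with
    | zero => simp
    | succ k ih => rw [pow_succ, mul_assoc, hTh, mul_neg, ih, pow_succ, mul_neg_one, neg_mul]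
  have h2h : f * f * f = -(f * f * f) := by
    have := hpow ϖ
    rwa [hT, one_mul, hodd.neg_one_pow, neg_one_mul] at this
  have h4 : f * f * f * f = 0 := by
    have : f * f * f * f = T * (f * f * f) - f * f * f := by rw [hf]; noncomm_ring
    rw [this, hTh, sub_eq_add_neg, ← neg_add, neg_eq_zero]
    nth_rw 1 [h2h]
    exact neg_add_cancel _
  -- `f = f² * u`
  obtain ⟨u, hu, hcu⟩ : ∃ u, (ϖ : A) * f = f * f * u ∧ Commute f u := by
    refine ⟨-∑ i ∈ Finset.range ϖ, ∑ j ∈ Finset.range i, T ^ j, ?_, ?_⟩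
    · have hg : (∑ i ∈ Finset.range ϖ, T ^ i) * f = 0 := by rw [hf, geom_sum_mul, hT, sub_self]
      have hsum : ∑ i ∈ Finset.range ϖ, T ^ i =
          f * (∑ i ∈ Finset.range ϖ, ∑ j ∈ Finset.range i, T ^ j) + ϖ := by
        rw [Finset.mul_sum]
        simp only [hf, mul_geom_sum]
        simp [Finset.sum_sub_distrib]
      rw [hsum, add_mul, mul_assoc, ← (Commute.sum_right _ _ _ fun i _ => Commute.sum_right _ _ _
        fun j _ => ((Commute.refl T).sub_left (Commute.one_left T)).pow_right j).eq, ← mul_assoc] at hg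
      rw [mul_neg]
      exact eq_neg_of_add_eq_zero_right hg
    · exact (Commute.sum_right _ _ _ fun i _ => Commute.sum_right _ _ _
        fun j _ => ((Commute.refl T).sub_left (Commute.one_left T)).pow_right j).neg_right
  obtain ⟨a, b, hab⟩ := Int.isCoprime_iff_gcd_eq_one.2 (show Int.gcd (ϖ : ℤ) r = 1 from hcop.symm)
  have hf2 : f = f * (f * ((a : A) * u)) := by
    calc f = ((a * (ϖ : ℤ) + b * (r : ℤ) : ℤ) : A) * f := by rw [hab, Int.cast_one, one_mul]
      _ = (a : A) * ((ϖ : A) * f) := by push_cast; rw [hr, mul_zero, add_zero, mul_assoc]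
      _ = (a : A) * (f * f * u) := by rw [hu]
      _ = f * (f * ((a : A) * u)) := by
        simp only [← mul_assoc]
        rw [(Int.cast_commute a f).eq, mul_assoc f _ f, (Int.cast_commute a f).eq, ← mul_assoc]
  set w := f * ((a : A) * u)
  have hw : ∀ k : ℕ, f = f * w ^ k := fun k => by
    induction k with
    | zero => simp
    | succ k ih => rw [pow_succ', ← mul_assoc, ← hf2]; exact ih
  have hcw : Commute f ((a : A) * u) := (Int.cast_commute a f).symm.mul_right hcu
  have : f = 0 := by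
    rw [hw 3]
    show f * (f * ((a : A) * u)) ^ 3 = 0
    rw [hcw.mul_pow, ← mul_assoc, pow_three', ← mul_assoc, ← mul_assoc, h4, zero_mul]
  exact sub_eq_zero.1 this

end Ring

/-! ### The group -/

variable {F : Type*} [Field F] {n : ℕ}

/-- The scalar matrices, as a homomorphism. -/
def sc : Fˣ →* Matrix.GeneralLinearGroup (Fin n) F :=
  Units.map (Matrix.scalar (Fin n) : F →+* Matrix (Fin n) (Fin n) F).toMonoidHom

theorem sc_range : (sc : Fˣ →* Matrix.GeneralLinearGroup (Fin n) F).range = Cfsg.Geo.scalars (Fin n) F :=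
  rfl

theorem sc_comm (c : Fˣ) (g : Matrix.GeneralLinearGroup (Fin n) F) : sc c * g = g * sc c :=
  Units.ext (show Matrix.scalar (Fin n) (c : F) * (g : Matrix (Fin n) (Fin n) F) = g * Matrix.scalar (Fin n) (c : F) from
    (Matrix.scalar_commute (c : F) (fun x => Commute.all _ x) _).eq)

theorem scalar_comm {s : Matrix.GeneralLinearGroup (Fin n) F} (hs : s ∈ Cfsg.Geo.scalars (Fin n) F)
    (g : Matrix.GeneralLinearGroup (Fin n) F) : s * g = g * s := by
  obtain ⟨c, rfl⟩ := hs
  exact sc_comm c g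

theorem sc_injective (hn : 0 < n) :
    Function.Injective (sc : Fˣ → Matrix.GeneralLinearGroup (Fin n) F) := fun a b h => by
  refine Units.ext ?_
  have := congrArg (fun m : Matrix.GeneralLinearGroup (Fin n) F =>
    (m : Matrix (Fin n) (Fin n) F) ⟨0, hn⟩ ⟨0, hn⟩) h
  simpa [sc] using this

/-- The action on vectors. -/
noncomputable def ρ (g : Matrix.GeneralLinearGroup (Fin n) F) : Module.End F (Fin n → F) :=
  Matrix.toLin' (g : Matrix (Fin n) (Fin n) F)

theorem ρ_mul (a b : Matrix.GeneralLinearGroup (Fin n) F) (v : Fin n → F) :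
    ρ (a * b) v = ρ a (ρ b v) := by
  show Matrix.toLin' ((a : Matrix (Fin n) (Fin n) F) * (b : Matrix (Fin n) (Fin n) F)) v = _
  rw [Matrix.toLin'_mul_apply]
  rfl

theorem ρ_one (v : Fin n → F) : ρ (1 : Matrix.GeneralLinearGroup (Fin n) F) v = v := by
  simp [ρ]

theorem ρ_sc (c : Fˣ) (v : Fin n → F) : ρ (sc c : Matrix.GeneralLinearGroup (Fin n) F) v = (c : F) • v := by
  funext i
  simp [ρ, sc, Matrix.mulVec_diagonal]

theorem ρ_injective (a : Matrix.GeneralLinearGroup (Fin n) F) : Function.Injective (ρ a) :=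
  Function.LeftInverse.injective (g := ρ a⁻¹) fun v => by rw [← ρ_mul, inv_mul_cancel, ρ_one]

theorem ρ_pow (a : Matrix.GeneralLinearGroup (Fin n) F) (k : ℕ) : ρ (a ^ k) = ρ a ^ k := by
  induction k with
  | zero => exact LinearMap.ext fun v => by rw [pow_zero, pow_zero, ρ_one]; rfl
  | succ k ih => exact LinearMap.ext fun v => by rw [pow_succ, pow_succ, ρ_mul, ih]; rfl

theorem eigen_bound [Finite F] {h z : Matrix.GeneralLinearGroup (Fin n) F} {ζ : Fˣ}
    (hz : h * z = sc ζ * (z * h)) {c : F} (hc : c ≠ 0) :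
    orderOf ζ * finrank F (End.eigenspace (ρ h) c) ≤ n := by
  have h1 := order_mul_finrank_le (H := ρ h) (Z := ρ z) (ζ := (ζ : F))
    (by rw [orderOf_units]; exact orderOf_pos ζ) (ρ_injective z) (E := ⊤) (fun _ _ => trivial)
    (fun v _ => by rw [← ρ_mul, hz, ρ_mul, ρ_sc, ρ_mul]) hc
  rwa [top_inf_eq, finrank_top, Module.finrank_fin_fun, orderOf_units] at h1

theorem two_mul_eigen_le [Finite F] {h z : Matrix.GeneralLinearGroup (Fin n) F} {ζ : Fˣ} (hζ : ζ ≠ 1)
    (hz : h * z = sc ζ * (z * h)) {c : F} (hc : c ≠ 0) :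
    2 * finrank F (End.eigenspace (ρ h) c) ≤ n := by
  refine le_trans (Nat.mul_le_mul_right _ ?_) (eigen_bound hz hc)
  rcases Nat.lt_or_ge (orderOf ζ) 2 with h2 | h2
  · have := orderOf_pos ζ
    exact absurd (orderOf_eq_one_iff.1 (show orderOf ζ = 1 by omega)) hζ
  · exact h2

variable [Fintype F] {r : ℕ} {R : Subgroup (Matrix.GeneralLinearGroup (Fin n) F)}

local notation "M" => (R ⊔ Cfsg.Geo.scalars (Fin n) F)

theorem exists_decomp {a : Matrix.GeneralLinearGroup (Fin n) F} (ha : a ∈ M) :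
    ∃ x ∈ R, ∃ c : Fˣ, a = sc c * x := by
  haveI : (Cfsg.Geo.scalars (Fin n) F).Normal := ⟨fun s hs g => by
    rw [← scalar_comm hs g, mul_inv_cancel_right]; exact hs⟩
  obtain ⟨x, hx, s, ⟨c, rfl⟩, rfl⟩ := Subgroup.mem_sup_of_normal_right.1 ha
  exact ⟨x, hx, c, (sc_comm c x).symm⟩

structure Setup (r : ℕ) (R : Subgroup (Matrix.GeneralLinearGroup (Fin n) F)) : Prop where
  pos : 0 < n
  prime : r.Prime
  hZ : Nat.card (Subgroup.center R) = r
  hext : commutator R = Subgroup.center R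
  habs : ∀ N : Matrix (Fin n) (Fin n) F, (∀ s ∈ Cfsg.Geo.matrixSet R, N * s = s * N) →
    ∃ c : F, N = c • (1 : Matrix (Fin n) (Fin n) F)

namespace Setup

variable (S : Setup r R)
include S

theorem mem_scalars {g : Matrix.GeneralLinearGroup (Fin n) F} (hg : ∀ x ∈ R, g * x = x * g) :
    g ∈ Cfsg.Geo.scalars (Fin n) F := by
  obtain ⟨c, hc⟩ := S.habs g fun s hs => by
    obtain ⟨x, hx, rfl⟩ := hs
    exact congrArg Units.val (hg x hx)
  refine (Cfsg.Geo.mem_scalars_iff g).2 ⟨Units.mk0 c ?_, hc⟩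
  rintro rfl
  haveI : Nonempty (Fin n) := ⟨⟨0, S.pos⟩⟩
  exact g.ne_zero (by rw [hc, zero_smul])

theorem center_scalar {z : R} (hz : z ∈ Subgroup.center R) :
    ∃ ζ : Fˣ, ζ ^ r = 1 ∧ (z : Matrix.GeneralLinearGroup (Fin n) F) = sc ζ := by
  obtain ⟨ζ, hζ⟩ := S.mem_scalars (g := z) fun x hx =>
    congrArg Subtype.val (Subgroup.mem_center_iff.1 hz ⟨x, hx⟩).symm
  refine ⟨ζ, sc_injective S.pos ?_, hζ.symm⟩
  rw [map_pow, map_one, show sc ζ = _ from hζ]
  have h := pow_card_eq_one' (x := (⟨z, hz⟩ : Subgroup.center R))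
  rw [S.hZ] at h
  exact congrArg (fun w : Subgroup.center R => ((w : R) : Matrix.GeneralLinearGroup (Fin n) F)) h

/-- Two elements of `R · scalars` commute up to an `r`-th root of unity. -/
theorem comm {a b : Matrix.GeneralLinearGroup (Fin n) F} (ha : a ∈ M) (hb : b ∈ M) :
    ∃ ζ : Fˣ, ζ ^ r = 1 ∧ a * b = sc ζ * (b * a) := by
  obtain ⟨x, hx, c, rfl⟩ := exists_decomp ha
  obtain ⟨y, hy, d, rfl⟩ := exists_decomp hb
  have hmem : ⁅(⟨x, hx⟩ : R), (⟨y, hy⟩ : R)⁆ ∈ Subgroup.center R := by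
    rw [← S.hext]
    exact Subgroup.commutator_mem_commutator (Subgroup.mem_top _) (Subgroup.mem_top _)
  obtain ⟨ζ, hζr, hζ⟩ := S.center_scalar hmem
  refine ⟨ζ, hζr, ?_⟩
  have e : x * y = sc ζ * (y * x) := by
    rw [← hζ]
    show x * y = x * y * x⁻¹ * y⁻¹ * (y * x)
    group
  calc sc c * x * (sc d * y) = sc c * sc d * (x * y) := by
        rw [mul_assoc, ← mul_assoc x, ← sc_comm d x]; simp only [mul_assoc]
    _ = sc c * sc d * (sc ζ * (y * x)) := by rw [e]
    _ = sc ζ * (sc d * y * (sc c * x)) := by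
        rw [mul_assoc (sc d) y, ← mul_assoc y (sc c), ← sc_comm c y]
        simp only [← mul_assoc, ← map_mul]
        congr 3
        simp [mul_comm, mul_left_comm]

theorem exists_root {a : Matrix.GeneralLinearGroup (Fin n) F} (ha : a ∈ M)
    (hns : a ∉ Cfsg.Geo.scalars (Fin n) F) :
    ∃ x ∈ R, ∃ ζ : Fˣ, orderOf ζ = r ∧ a * x = sc ζ * (x * a) := by
  by_contra hh
  push Not at hh
  refine hns (S.mem_scalars fun x hx => ?_)
  obtain ⟨ζ, hr1, e⟩ := S.comm ha (Subgroup.mem_sup_left hx)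
  rcases (Nat.dvd_prime S.prime).1 (orderOf_dvd_of_pow_eq_one hr1) with h | h
  · rw [e, orderOf_eq_one_iff.1 h, map_one, one_mul]
  · exact absurd e (hh x hx ζ h)

theorem fix_bound {a : Matrix.GeneralLinearGroup (Fin n) F} (ha : a ∈ M)
    (hns : a ∉ Cfsg.Geo.scalars (Fin n) F) {c : F} (hc : c ≠ 0) :
    r * finrank F (End.eigenspace (ρ a) c) ≤ n := by
  obtain ⟨x, -, ζ, hζ, e⟩ := S.exists_root ha hns
  exact hζ ▸ eigen_bound e hc

theorem prime_dvd {a : Matrix.GeneralLinearGroup (Fin n) F} (ha : a ∈ M)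
    (hns : a ∉ Cfsg.Geo.scalars (Fin n) F) : r ∣ n := by
  obtain ⟨x, -, ζ, hζ, e⟩ := S.exists_root ha hns
  rw [← hζ, orderOf_dvd_iff_pow_eq_one]
  have h := congrArg Matrix.GeneralLinearGroup.det e
  simp only [map_mul] at h
  rw [mul_comm (Matrix.GeneralLinearGroup.det a)] at h
  refine Units.ext ?_
  have h' := congrArg Units.val (mul_eq_right.1 h.symm)
  simpa [sc, Matrix.det_diagonal] using h'

theorem exists_not_comm {g : Matrix.GeneralLinearGroup (Fin n) F}
    (hg : g ∈ Subgroup.normalizer (SetLike.coe (M : Subgroup (Matrix.GeneralLinearGroup (Fin n) F)))) {ϖ : ℕ}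
    (hϖg : g ^ ϖ = 1) (hcop : r.Coprime ϖ) (hodd : Odd ϖ)
    (hR : ∀ x ∈ R, x ^ r ∈ Cfsg.Geo.scalars (Fin n) F)
    (hmove : ∃ x ∈ R, g * x * g⁻¹ * x⁻¹ ∉ Cfsg.Geo.scalars (Fin n) F) :
    ∃ x ∈ R, ¬ Commute (g * x * g⁻¹ * x⁻¹) (g * (g * x * g⁻¹ * x⁻¹) * g⁻¹) := by
  classical
  by_contra hall
  push Not at hall
  set N : Subgroup ↥M := (Cfsg.Geo.scalars (Fin n) F).subgroupOf M with hN
  haveI hNn : N.Normal := ⟨fun s hs x => by
    have e : x * s = s * x := Subtype.ext (scalar_comm hs (x : Matrix.GeneralLinearGroup (Fin n) F)).symm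
    rw [e, mul_inv_cancel_right]
    exact hs⟩
  letI cg : CommGroup (↥M ⧸ N) :=
    { (inferInstance : Group (↥M ⧸ N)) with
      mul_comm := fun a b => by
        obtain ⟨a, rfl⟩ := QuotientGroup.mk_surjective a
        obtain ⟨b, rfl⟩ := QuotientGroup.mk_surjective b
        obtain ⟨ζ, -, e⟩ := S.comm a.2 b.2
        rw [← QuotientGroup.mk_mul, ← QuotientGroup.mk_mul, QuotientGroup.eq, hN,
          Subgroup.mem_subgroupOf]
        simp only [Subgroup.coe_mul, Subgroup.coe_inv]
        rw [e, mul_inv_rev, mul_assoc, scalar_comm (inv_mem (show sc ζ ∈ _ from ⟨ζ, rfl⟩)),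
          inv_mul_cancel_left]
        exact inv_mem ⟨ζ, rfl⟩ }
  let cj : (k : Matrix.GeneralLinearGroup (Fin n) F) →
      k ∈ Subgroup.normalizer (SetLike.coe (M : Subgroup (Matrix.GeneralLinearGroup (Fin n) F))) → (↥M →* ↥M) := fun k hk =>
    { toFun := fun x => ⟨k * x * k⁻¹, (Subgroup.mem_normalizer_iff.1 hk _).1 x.2⟩
      map_one' := Subtype.ext (by simp)
      map_mul' := fun a b => Subtype.ext (by simp [mul_assoc]) }
  have hcN : ∀ k hk, N ≤ N.comap (cj k hk) := fun k hk s hs => by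
    show k * (s : Matrix.GeneralLinearGroup (Fin n) F) * k⁻¹ ∈ Cfsg.Geo.scalars (Fin n) F
    have hs' : (s : Matrix.GeneralLinearGroup (Fin n) F) ∈ Cfsg.Geo.scalars (Fin n) F := hs
    rw [← scalar_comm hs' k, mul_inv_cancel_right]
    exact hs'
  let T : AddMonoid.End (Additive (↥M ⧸ N)) :=
    MonoidHom.toAdditive (QuotientGroup.map N N (cj g hg) (hcN g hg))
  let Ti : AddMonoid.End (Additive (↥M ⧸ N)) :=
    MonoidHom.toAdditive (QuotientGroup.map N N (cj g⁻¹ (inv_mem hg)) (hcN g⁻¹ (inv_mem hg)))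
  let q : ↥M → Additive (↥M ⧸ N) := fun x => Additive.ofMul (x : ↥M ⧸ N)
  have hq : Function.Surjective q := fun a => by
    obtain ⟨x, hx⟩ := QuotientGroup.mk_surjective (Additive.toMul a)
    exact ⟨x, by simp [q, hx]⟩
  have hT : ∀ x, T (q x) = q (cj g hg x) := fun x => rfl
  have hTi : ∀ x, Ti (q x) = q (cj g⁻¹ (inv_mem hg) x) := fun x => rfl
  have hTp : ∀ (k : ℕ) (x : ↥M) (y : ↥M),
      (y : Matrix.GeneralLinearGroup (Fin n) F) = g ^ k * x * (g ^ k)⁻¹ → (T ^ k) (q x) = q y := by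
    intro k
    induction k with
    | zero => intro x y h; simp only [pow_zero, one_mul, inv_one, mul_one] at h; rw [Subtype.ext h]; rfl
    | succ k ih =>
      intro x y h
      rw [pow_succ, AddMonoid.End.coe_mul, Function.comp_apply, hT]
      refine ih _ _ ?_
      rw [h]
      show _ = g ^ k * (g * x * g⁻¹) * (g ^ k)⁻¹
      rw [pow_succ]
      group
  have heq : T = 1 := by
    refine eq_one_of_relation (r := r) (ϖ := ϖ) (Ti := Ti) ?_ ?_ ?_ hcop hodd ?_ ?_
    · refine AddMonoidHom.ext fun a => ?_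
      obtain ⟨x, rfl⟩ := hq a
      show Ti (T (q x)) = q x
      rw [hT, hTi]
      congr 1
      exact Subtype.ext (show g⁻¹ * (g * x * g⁻¹) * g⁻¹⁻¹ = x by group)
    · refine AddMonoidHom.ext fun a => ?_
      obtain ⟨x, rfl⟩ := hq a
      show T (Ti (q x)) = q x
      rw [hTi, hT]
      congr 1
      exact Subtype.ext (show g * (g⁻¹ * x * g⁻¹⁻¹) * g⁻¹ = x by group)
    · refine AddMonoidHom.ext fun a => ?_
      obtain ⟨x, rfl⟩ := hq a
      show r • q x = 0
      show Additive.ofMul ((x : ↥M ⧸ N) ^ r) = Additive.ofMul 1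
      congr 1
      rw [← QuotientGroup.mk_pow, QuotientGroup.eq_one_iff, hN, Subgroup.mem_subgroupOf,
        SubgroupClass.coe_pow]
      obtain ⟨y, hy, c, hc⟩ := exists_decomp x.2
      rw [hc, (show Commute (sc c) y from sc_comm c y).mul_pow, ← map_pow]
      exact mul_mem ⟨_, rfl⟩ (hR y hy)
    · refine AddMonoidHom.ext fun a => ?_
      obtain ⟨x, rfl⟩ := hq a
      exact hTp ϖ x x (by rw [hϖg, inv_one, one_mul, mul_one])
    · -- polarisation
      refine AddMonoidHom.ext fun a => ?_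
      obtain ⟨b, rfl⟩ := hq a
      let D : ↥M → ↥M := fun x => cj g hg x * x⁻¹
      have hD : ∀ x, q (D x) = T (q x) - q x := fun x => by
        rw [hT, sub_eq_add_neg]; rfl
      -- the commutator pairing
      let κ : ↥M → ↥M → Matrix.GeneralLinearGroup (Fin n) F := fun x y =>
        (x : Matrix.GeneralLinearGroup (Fin n) F) * y * (x : Matrix.GeneralLinearGroup (Fin n) F)⁻¹ *
          (y : Matrix.GeneralLinearGroup (Fin n) F)⁻¹
      have hκ : ∀ x y, κ x y ∈ Cfsg.Geo.scalars (Fin n) F := fun x y => by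
        obtain ⟨ζ, -, e⟩ := S.comm x.2 y.2
        show _ * _ * _ * _ ∈ _
        rw [e]
        exact ⟨ζ, by show sc ζ = _; group⟩
      have hκl : ∀ x x' y, κ (x * x') y = κ x y * κ x' y := fun x x' y => by
        rw [show κ (x * x') y = x * κ x' y * (x : Matrix.GeneralLinearGroup (Fin n) F)⁻¹ * κ x y by
          simp only [κ, Subgroup.coe_mul]; group]
        rw [← scalar_comm (hκ x' y), mul_inv_cancel_right, scalar_comm (hκ x' y)]
      have hκs : ∀ x y, κ y x = (κ x y)⁻¹ := fun x y => by simp only [κ]; group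
      have hκr : ∀ x y y', κ x (y * y') = κ x y * κ x y' := fun x y y' => by
        rw [hκs, hκl, mul_inv_rev, ← hκs, ← hκs, scalar_comm (hκ x y')]
      have hκ1 : ∀ x y, q x = 0 → κ x y = 1 := fun x y hx => by
        have hxS : (x : Matrix.GeneralLinearGroup (Fin n) F) ∈ Cfsg.Geo.scalars (Fin n) F :=
          (QuotientGroup.eq_one_iff x).1 hx
        show (x : Matrix.GeneralLinearGroup (Fin n) F) * y * _ * _ = 1
        rw [scalar_comm hxS, mul_inv_cancel_right, mul_inv_cancel]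
      have hκq : ∀ x x' y, q x = q x' → κ x y = κ x' y := fun x x' y h => by
        have h0 : q (x'⁻¹ * x) = 0 := by
          show -q x' + q x = 0
          rw [h, neg_add_cancel]
        rw [show x = x' * (x'⁻¹ * x) by group, hκl, hκ1 _ _ h0, mul_one]
      have hκg : ∀ x y, κ (cj g hg x) (cj g hg y) = κ x y := fun x y => by
        rw [show κ (cj g hg x) (cj g hg y) = g * κ x y * g⁻¹ by
          show (g * x * g⁻¹) * (g * y * g⁻¹) * (g * x * g⁻¹)⁻¹ * (g * y * g⁻¹)⁻¹ = g * (_ * _ * _ * _) * g⁻¹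
          group]
        rw [← scalar_comm (hκ x y), mul_inv_cancel_right]
      have hbase : ∀ x, κ (D x) (cj g hg (D x)) = 1 := fun x => by
        obtain ⟨y, hy, c, hc⟩ := exists_decomp x.2
        have hDx : (D x : Matrix.GeneralLinearGroup (Fin n) F) = g * y * g⁻¹ * y⁻¹ := by
          show g * (x : Matrix.GeneralLinearGroup (Fin n) F) * g⁻¹ * (x : Matrix.GeneralLinearGroup (Fin n) F)⁻¹ = _
          rw [hc, mul_inv_rev, ← mul_assoc g, ← sc_comm c g]
          calc sc c * g * y * g⁻¹ * (y⁻¹ * (sc c)⁻¹) = sc c * (g * y * g⁻¹ * y⁻¹) * (sc c)⁻¹ := by group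
            _ = _ := by rw [sc_comm c, mul_inv_cancel_right]
        have hc' := hall y hy
        rw [← hDx] at hc'
        show (D x : Matrix.GeneralLinearGroup (Fin n) F) * (g * D x * g⁻¹) * _ * _ = 1
        rw [hc'.eq, mul_inv_cancel_right]
        exact mul_inv_cancel _
      have hpol : ∀ x z, κ (D x) (cj g hg (D z)) = κ (D x) (cj g⁻¹ (inv_mem hg) (D z)) := fun x z => by
        have hDm : q (D (x * z)) = q (D x * D z) := by
          show q (D (x * z)) = q (D x) + q (D z)
          rw [hD, hD, hD, show q (x * z) = q x + q z from rfl, map_add]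
          abel
        have h1 := hbase (x * z)
        have h2 : κ (D (x * z)) (cj g hg (D (x * z))) = κ (D x * D z) (cj g hg (D x * D z)) := by
          rw [hκq _ _ _ hDm, hκs, hκq _ (cj g hg (D x * D z)) _ (by rw [← hT, hDm, hT]), ← hκs]
        rw [h2, map_mul, hκl, hκr, hκr, hbase x, hbase z, one_mul, mul_one] at h1
        have h3 : cj g hg (cj g⁻¹ (inv_mem hg) (D z)) = D z :=
          Subtype.ext (show g * (g⁻¹ * D z * g⁻¹⁻¹) * g⁻¹ = D z by group)
        have h4 : κ (D x) (cj g⁻¹ (inv_mem hg) (D z)) = κ (cj g hg (D x)) (D z) := by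
          rw [← hκg (D x), h3]
        rw [h4, hκs (D z) (cj g hg (D x))]
        exact eq_inv_of_mul_eq_one_left h1
      set e : ↥M := cj g hg (D b) * (cj g⁻¹ (inv_mem hg) (D b))⁻¹ with he
      have hz : ∀ x, κ x (cj g⁻¹ (inv_mem hg) e * e⁻¹) = 1 := fun x => by
        have hxe : κ (D x) e = 1 := by
          rw [he, hκr, hpol]
          rw [← hκr, mul_inv_cancel]
          simp [κ]
        rw [show D x = cj g hg x * x⁻¹ from rfl, hκl] at hxe
        have h5 : κ x⁻¹ e = κ x e⁻¹ := by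
          have a1 : κ x⁻¹ e * κ x e = 1 := by rw [← hκl, inv_mul_cancel]; simp [κ]
          have a2 : κ x e⁻¹ * κ x e = 1 := by rw [← hκr, inv_mul_cancel]; simp [κ]
          exact (eq_inv_of_mul_eq_one_left a1).trans (eq_inv_of_mul_eq_one_left a2).symm
        have h6 : κ (cj g hg x) e = κ x (cj g⁻¹ (inv_mem hg) e) := by
          rw [← hκg x]
          congr 1
          exact Subtype.ext (show (e : Matrix.GeneralLinearGroup (Fin n) F) = g * (g⁻¹ * e * g⁻¹⁻¹) * g⁻¹ by group)
        rw [hκr, ← h5, ← h6]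
        exact hxe
      set w := cj g⁻¹ (inv_mem hg) e * e⁻¹ with hw
      have hwS : (w : Matrix.GeneralLinearGroup (Fin n) F) ∈ Cfsg.Geo.scalars (Fin n) F := by
        refine S.mem_scalars fun x hx => ?_
        have := hz ⟨x, Subgroup.mem_sup_left hx⟩
        simp only [κ, mul_inv_eq_one, mul_inv_eq_iff_eq_mul, one_mul] at this
        exact this.symm
      have hw0 : q w = 0 := congrArg Additive.ofMul ((QuotientGroup.eq_one_iff w).2 hwS)
      show Ti ((T - Ti) ((T - 1) (q b))) - (T - Ti) ((T - 1) (q b)) = 0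
      rw [show (T - 1) (q b) = q (D b) by rw [hD]; rfl,
        show (T - Ti) (q (D b)) = q e by
          show T (q (D b)) - Ti (q (D b)) = _
          rw [hT, hTi, sub_eq_add_neg]; rfl, hTi, sub_eq_add_neg]
      exact hw0
  obtain ⟨x, hx, hxS⟩ := hmove
  apply hxS
  have := DFunLike.congr_fun heq (q ⟨x, Subgroup.mem_sup_left hx⟩)
  rw [hT] at this
  have h2 := (QuotientGroup.eq).1 (Additive.ofMul.injective this).symm
  rw [hN, Subgroup.mem_subgroupOf] at h2
  have h3 : x⁻¹ * (g * x * g⁻¹) ∈ Cfsg.Geo.scalars (Fin n) F := h2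
  have e : g * x * g⁻¹ * x⁻¹ = x * (x⁻¹ * (g * x * g⁻¹)) * x⁻¹ := by group
  rw [e, ← scalar_comm h3 x, mul_inv_cancel_right]
  exact h3

end Setup

end Cfsg.Agent.Components.ExtraspecialEigen
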