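import Cfsg.Agent.Components.ExtraspecialEigen

/-!
The bounds on eigenspaces of an element of prime order normalising an extraspecial group.
-/

set_option autoImplicit false
set_option linter.unusedSectionVars false

namespace Cfsg.Agent.Components.ExtraspecialEigen

open Module
open scoped commutatorElement

variable {F : Type*} [Field F] [Fintype F] {n r : ℕ}
  {R : Subgroup (Matrix.GeneralLinearGroup (Fin n) F)}

namespace Setup

variable (S : Setup r R)
include S

theorem pow_mem_scalars {x : Matrix.GeneralLinearGroup (Fin n) F} (hx : x ∈ R) :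
    x ^ r ∈ Cfsg.Geo.scalars (Fin n) F := by
  refine S.mem_scalars fun y hy => ?_
  obtain ⟨ζ, hζ, e⟩ := S.comm (Subgroup.mem_sup_left hy) (Subgroup.mem_sup_left hx)
  have e1 : y * x * y⁻¹ = sc ζ * x := by
    rw [e, ← mul_assoc (sc ζ), mul_inv_cancel_right]
  have e2 := congrArg (· ^ r) e1
  simp only [conj_pow, (show Commute (sc ζ) x from sc_comm ζ x).mul_pow, ← map_pow, hζ, map_one,
    one_mul, mul_inv_eq_iff_eq_mul] at e2
  exact e2.symm

theorem conj_mem {g : Matrix.GeneralLinearGroup (Fin n) F}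
    (hg : g ∈ Subgroup.normalizer (SetLike.coe (R ⊔ Cfsg.Geo.scalars (Fin n) F)))
    {x : Matrix.GeneralLinearGroup (Fin n) F} (hx : x ∈ R) :
    g * x * g⁻¹ * x⁻¹ ∈ R ⊔ Cfsg.Geo.scalars (Fin n) F :=
  mul_mem ((Subgroup.mem_normalizer_iff.1 hg _).1 (Subgroup.mem_sup_left hx))
    (inv_mem (Subgroup.mem_sup_left hx))

/-- When `g` has the same prime order as the exponent, some `x` has `[g,x]` non-scalar and fixed by
`g` up to scalars. -/
theorem exists_fixed_commutator (hR : IsPGroup r R) {g : Matrix.GeneralLinearGroup (Fin n) F}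
    (hg : g ∈ Subgroup.normalizer (SetLike.coe (R ⊔ Cfsg.Geo.scalars (Fin n) F))) (hgr : g ^ r = 1)
    (hmove : ∃ x ∈ R, g * x * g⁻¹ * x⁻¹ ∉ Cfsg.Geo.scalars (Fin n) F) :
    ∃ x ∈ R, g * x * g⁻¹ * x⁻¹ ∉ Cfsg.Geo.scalars (Fin n) F ∧
      g * (g * x * g⁻¹ * x⁻¹) * g⁻¹ * (g * x * g⁻¹ * x⁻¹)⁻¹ ∈ Cfsg.Geo.scalars (Fin n) F := by
  classical
  haveI : Fact r.Prime := ⟨S.prime⟩
  set Zc := Cfsg.Geo.scalars (Fin n) F
  haveI hn : Zc.Normal := ⟨fun s hs k => by rw [← scalar_comm hs k, mul_inv_cancel_right]; exact hs⟩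
  let π := QuotientGroup.mk' Zc
  set A := R.map π with hA
  set K := Subgroup.zpowers (π g) with hK
  have hAp : IsPGroup r A := hR.map π
  have hKp : IsPGroup r K := by
    rintro ⟨k, hk⟩
    obtain ⟨i, rfl⟩ := Subgroup.mem_zpowers_iff.1 hk
    refine ⟨1, Subtype.ext ?_⟩
    show ((π g) ^ i) ^ r ^ 1 = 1
    rw [pow_one, ← zpow_natCast, ← zpow_mul, mul_comm, zpow_mul, zpow_natCast, ← map_pow, hgr,
      map_one, one_zpow]
  have hmemA : ∀ {k : Matrix.GeneralLinearGroup (Fin n) F}, k ∈ R ⊔ Zc → π k ∈ A := by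
    intro k hk
    obtain ⟨x, hx, c, rfl⟩ := exists_decomp hk
    refine ⟨x, hx, ?_⟩
    rw [map_mul, show π (sc c) = 1 from (QuotientGroup.eq_one_iff _).2 ⟨c, rfl⟩, one_mul]
  have hnorm : K ≤ Subgroup.normalizer (A : Set _) := by
    rw [hK, Subgroup.zpowers_le]
    refine Subgroup.mem_normalizer_fintype fun a ha => ?_
    obtain ⟨x, hx, rfl⟩ := ha
    rw [← map_mul, ← map_inv, ← map_mul]
    exact hmemA ((Subgroup.mem_normalizer_iff.1 hg _).1 (Subgroup.mem_sup_left hx))
  set L := K ⊔ A with hL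
  have hLp : IsPGroup r L := hKp.to_sup_of_normal_right' hAp hnorm
  haveI : Group.IsNilpotent ↥L := hLp.isNilpotent
  obtain ⟨m, hm⟩ := nilpotent_iff_lowerCentralSeries.1 (inferInstance : Group.IsNilpotent ↥L)
  let gb : ↥L := ⟨π g, Subgroup.mem_sup_left (Subgroup.mem_zpowers _)⟩
  obtain ⟨x₀, hx₀, hx₀S⟩ := hmove
  let seq : ℕ → ↥L := fun k => (fun z : ↥L => ⁅gb, z⁆)^[k]
    ⟨π x₀, Subgroup.mem_sup_right ⟨x₀, hx₀, rfl⟩⟩
  have hseqA : ∀ k, (seq k : Matrix.GeneralLinearGroup (Fin n) F ⧸ Zc) ∈ A := by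
    intro k
    induction k with
    | zero => exact ⟨x₀, hx₀, rfl⟩
    | succ k ih =>
      simp only [seq, Function.iterate_succ_apply'] at ih ⊢
      show π g * _ * (π g)⁻¹ * _ ∈ A
      exact mul_mem ((Subgroup.mem_normalizer_iff.1 (hnorm (Subgroup.mem_zpowers _)) _).1 ih) (inv_mem ih)
  have hseqL : ∀ k, seq k ∈ Subgroup.lowerCentralSeries (⊤ : Subgroup ↥L) k := by
    intro k
    induction k with
    | zero => trivial
    | succ k ih =>
      simp only [seq, Function.iterate_succ_apply'] at ih ⊢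
      rw [← commutatorElement_inv]
      exact inv_mem (Subgroup.commutator_mem_commutator ih (Subgroup.mem_top _))
  have hex : ∃ k, seq k = 1 := ⟨m, Subgroup.mem_bot.1 (hm ▸ hseqL m)⟩
  have h1 : seq 1 ≠ 1 := fun h => hx₀S ((QuotientGroup.eq_one_iff _).1 (by
    have := congrArg Subtype.val h
    simpa [seq, commutatorElement_def, gb, π] using this))
  have h0 : seq 0 ≠ 1 := fun h => h1 (by
    show ⁅gb, seq 0⁆ = 1
    rw [h, commutatorElement_one_right])
  obtain ⟨k, hk⟩ : ∃ k, Nat.find hex = k + 2 := by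
    refine ⟨Nat.find hex - 2, ?_⟩
    have hs := Nat.find_spec hex
    rcases hh : Nat.find hex with _ | _ | j
    · rw [hh] at hs; exact absurd hs h0
    · rw [hh] at hs; exact absurd hs h1
    · omega
  obtain ⟨x, hx, hxe⟩ := hseqA k
  have e1 : π (g * x * g⁻¹ * x⁻¹) = ((seq (k + 1) : ↥L) : _ ⧸ Zc) := by
    simp only [seq, Function.iterate_succ_apply', map_mul, map_inv, hxe]
    rfl
  refine ⟨x, hx, fun h => Nat.find_min hex (show k + 1 < Nat.find hex by omega) (Subtype.ext ?_), ?_⟩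
  · rw [← e1]
    exact (QuotientGroup.eq_one_iff _).2 h
  · rw [← QuotientGroup.eq_one_iff]
    have h2 : ((seq (k + 2) : ↥L) : _ ⧸ Zc) = 1 := congrArg Subtype.val (hk ▸ Nat.find_spec hex)
    rw [← h2]
    simp only [seq, Function.iterate_succ_apply'] at e1 ⊢
    show π (g * (g * x * g⁻¹ * x⁻¹) * g⁻¹ * (g * x * g⁻¹ * x⁻¹)⁻¹) = _
    rw [map_mul π _ (g * x * g⁻¹ * x⁻¹)⁻¹, map_mul π _ g⁻¹, map_mul π g, map_inv π (g * x * g⁻¹ * x⁻¹),
      e1, map_inv π g]
    rfl

/-- The bound in the case of an element of the same order as the exponent. -/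
theorem special_bound (hr5 : 4 ≤ r) (hexp : ∀ x ∈ R, x ^ r = 1) (hRp : IsPGroup r R)
    {g : Matrix.GeneralLinearGroup (Fin n) F}
    (hg : g ∈ Subgroup.normalizer (SetLike.coe (R ⊔ Cfsg.Geo.scalars (Fin n) F))) (hgr : g ^ r = 1)
    (hmove : ∃ x ∈ R, g * x * g⁻¹ * x⁻¹ ∉ Cfsg.Geo.scalars (Fin n) F) {c : F} (hc : c ≠ 0) :
    2 * finrank F (End.eigenspace (ρ g) c) ≤ n := by
  classical
  obtain ⟨x, hx, hyS, hfix⟩ := S.exists_fixed_commutator hRp hg hgr hmove
  set y := g * x * g⁻¹ * x⁻¹ with hy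
  have hyM : y ∈ R ⊔ Cfsg.Geo.scalars (Fin n) F := S.conj_mem hg hx
  obtain ⟨lam, hlam⟩ := hfix
  have hlam' : g * y = sc lam * (y * g) := by
    rw [show sc lam = g * y * g⁻¹ * y⁻¹ from hlam]
    group
  by_cases hl : lam = 1
  swap
  · exact two_mul_eigen_le hl hlam' hc
  rw [hl, map_one, one_mul] at hlam'
  -- `y` has order `r`
  have hyr : y ^ r = 1 := by
    obtain ⟨h, hh, μ, hμ⟩ := exists_decomp ((Subgroup.mem_normalizer_iff.1 hg x).1 (Subgroup.mem_sup_left hx))
    have e := congrArg (· ^ r) hμ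
    simp only [conj_pow, hexp x hx, mul_one, mul_inv_cancel, (show Commute (sc μ) h from sc_comm μ h).mul_pow,
      hexp h hh] at e
    rw [hy, hμ, mul_assoc, (show Commute (sc μ) (h * x⁻¹) from sc_comm μ _).mul_pow, ← e,
      hexp _ (mul_mem hh (inv_mem hx)), mul_one]
  have hYr : ρ y ^ r = 1 := by
    rw [← ρ_pow, hyr]; exact LinearMap.ext fun v => by rw [ρ_one]; rfl
  set W := End.eigenspace (ρ g) c with hW
  have hWy : ∀ v ∈ W, ρ y v ∈ W := fun v hv => by
    rw [hW, End.mem_eigenspace_iff] at hv ⊢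
    rw [← ρ_mul, hlam', ρ_mul, hv, map_smul]
  have hgx : ∀ v, ρ g (ρ x v) = ρ y (ρ x (ρ g v)) := fun v => by
    rw [← ρ_mul, ← ρ_mul, ← ρ_mul, hy, inv_mul_cancel_right, inv_mul_cancel_right]
  obtain ⟨ξ, hξr, hξ⟩ := S.comm hyM (Subgroup.mem_sup_left hx)
  -- a primitive root and the bound for the eigenspaces of `y`
  obtain ⟨z, -, ω₀, hω₀, -⟩ := S.exists_root hyM hyS
  have hr0 : r ≠ 0 := S.prime.ne_zero
  haveI : NeZero r := ⟨hr0⟩
  have hprim : ∀ u : Fˣ, orderOf u = r → IsPrimitiveRoot (u : F) r := fun u hu =>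
    IsPrimitiveRoot.coe_units_iff.2 (hu ▸ IsPrimitiveRoot.orderOf u)
  have hrF : (r : F) ≠ 0 := (IsPrimitiveRoot.neZero' (hprim ω₀ hω₀)).out
  have hE : ∀ a : F, a ≠ 0 → r * finrank F (End.eigenspace (ρ y) a) ≤ n := fun a ha =>
    S.fix_bound hyM hyS ha
  suffices key : r * finrank F W ≤ 2 * n by
    have : 4 * finrank F W ≤ r * finrank F W := Nat.mul_le_mul_right _ hr5
    omega
  have hdec : ∀ ω : F, IsPrimitiveRoot ω r →
      finrank F W ≤ ∑ i ∈ Finset.range r,
        finrank F (W ⊓ End.eigenspace (ρ y) (ω ^ i) : Submodule F (Fin n → F)) := fun ω hω =>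
    (Submodule.finrank_mono (le_sup_eigen hrF hω hYr hWy)).trans (finrank_sup_finset_le _ _)
  by_cases hξ1 : ξ = 1
  · -- `x` commutes with `y`
    rw [hξ1, map_one, one_mul] at hξ
    set ω : F := (ω₀ : F) with hωdef
    have hω := hprim ω₀ hω₀
    have hω0 : ω ≠ 0 := ω₀.ne_zero
    have hterm : ∀ i ∈ Finset.range r, i ≠ 0 →
        r * (r * finrank F (W ⊓ End.eigenspace (ρ y) (ω ^ i) : Submodule F (Fin n → F))) ≤ n := by
      intro i hi hi0
      have ho : orderOf (ω ^ i) = r :=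
        ((hω.pow_of_coprime i (Nat.Coprime.symm (S.prime.coprime_iff_not_dvd.2
          (Nat.not_dvd_of_pos_of_lt (Nat.pos_of_ne_zero hi0) (Finset.mem_range.1 hi))))).eq_orderOf).symm
      have h1 := order_mul_finrank_le (H := ρ g) (Z := ρ x) (ζ := ω ^ i) (by omega) (ρ_injective x)
        (E := End.eigenspace (ρ y) (ω ^ i))
        (fun v hv => by
          rw [End.mem_eigenspace_iff] at hv ⊢
          rw [← ρ_mul, hξ, ρ_mul, hv, map_smul])
        (fun v hv => by
          rw [End.mem_eigenspace_iff] at hv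
          rw [hgx, ← ρ_mul y x, hξ, ρ_mul, ← ρ_mul y g, ← hlam', ρ_mul, hv, map_smul, map_smul])
        hc
      rw [ho, inf_comm, ← hW] at h1
      exact (Nat.mul_le_mul_left r h1).trans (hE _ (pow_ne_zero _ hω0))
    have h0 : r * finrank F (W ⊓ End.eigenspace (ρ y) (ω ^ 0) : Submodule F (Fin n → F)) ≤ n :=
      (Nat.mul_le_mul_left r (Submodule.finrank_mono inf_le_right)).trans (hE _ (pow_ne_zero _ hω0))
    have h1 := hdec ω hω
    rw [← Finset.add_sum_erase _ _ (Finset.mem_range.2 (Nat.pos_of_ne_zero hr0) : 0 ∈ Finset.range r)] at h1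
    have h2 : r * (r * ∑ i ∈ (Finset.range r).erase 0,
        finrank F (W ⊓ End.eigenspace (ρ y) (ω ^ i) : Submodule F (Fin n → F))) ≤ r * n := by
      rw [Finset.mul_sum, Finset.mul_sum]
      refine (Finset.sum_le_card_nsmul _ _ n fun i hi => hterm i (Finset.mem_of_mem_erase hi)
        (Finset.ne_of_mem_erase hi)).trans ?_
      rw [smul_eq_mul]
      exact Nat.mul_le_mul_right _ ((Finset.card_erase_le).trans (Finset.card_range r).le)
    have h3 := Nat.le_of_mul_le_mul_left h2 (Nat.pos_of_ne_zero hr0)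
    calc r * finrank F W ≤ _ := Nat.mul_le_mul_left r h1
      _ ≤ n + n := by rw [Nat.mul_add]; exact Nat.add_le_add h0 h3
      _ = 2 * n := by ring
  · -- `x` permutes the eigenspaces of `y` cyclically
    have hξo : orderOf ξ = r := ((Nat.dvd_prime S.prime).1 (orderOf_dvd_of_pow_eq_one hξr)).resolve_left
      (fun h => hξ1 (orderOf_eq_one_iff.1 h))
    set ω : F := (ξ : F) with hωdef
    have hω := hprim ξ hξo
    haveI : Fact r.Prime := ⟨S.prime⟩
    let w : ZMod r → F := fun a => ω ^ a.val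
    have hw : ∀ a b, w (a + b) = w a * w b := fun a b => by
      show ω ^ (a + b).val = ω ^ a.val * ω ^ b.val
      rw [← pow_add, ZMod.val_add, ← pow_eq_pow_mod _ hω.pow_eq_one]
    have hwc : ∀ i : ℕ, w (i : ZMod r) = ω ^ i := fun i => by
      show ω ^ (i : ZMod r).val = _
      rw [ZMod.val_natCast, ← pow_eq_pow_mod _ hω.pow_eq_one]
    let Y : ZMod r → Submodule F (Fin n → F) := fun a => End.eigenspace (ρ y) (w a)
    let f : ZMod r → ZMod r → ℕ := fun a b =>
      finrank F (Y a ⊓ End.eigenspace (ρ g) (c * w b) : Submodule F (Fin n → F))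
    have hstep : ∀ a b, f a b ≤ f (a + 1) (b + (a + 1)) := by
      intro a b
      refine finrank_le_of_mapsTo (ρ_injective x) fun v hv => ?_
      have hv1 : ρ y v = w a • v := End.mem_eigenspace_iff.1 hv.1
      have hv2 : ρ g v = (c * w b) • v := End.mem_eigenspace_iff.1 hv.2
      have hw1 : w 1 = ω := by rw [← Nat.cast_one, hwc, pow_one]
      have hyx : ρ y (ρ x v) = w (a + 1) • ρ x v := by
        rw [← ρ_mul, hξ, ρ_mul, ρ_sc, ρ_mul, hv1, map_smul, smul_smul, hw, hw1, mul_comm]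
      refine ⟨End.mem_eigenspace_iff.2 hyx, End.mem_eigenspace_iff.2 ?_⟩
      rw [hgx, hv2, map_smul, map_smul, hyx, smul_smul, mul_assoc, ← hw]
    have hiter : ∀ (a : ZMod r) (k : ℕ), ∃ s : ZMod r, f a 0 ≤ f (a + k) s ∧
        2 * s = 2 * k * a + k * (k + 1) := by
      intro a k
      induction k with
      | zero => exact ⟨0, by simp, by simp⟩
      | succ k ih =>
        obtain ⟨s, h1, h2⟩ := ih
        refine ⟨s + (a + k + 1), h1.trans ((hstep _ _).trans (le_of_eq ?_)), ?_⟩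
        · push_cast; ring_nf
        · push_cast; linear_combination h2
    have hφ : ∀ i : ℕ, ∃ s : ZMod r, f i 0 ≤ f 0 s ∧ 2 * s = -((i : ZMod r) * i + i) := by
      intro i
      obtain ⟨s, h1, h2⟩ := hiter (i : ZMod r) (-(i : ZMod r)).val
      rw [ZMod.natCast_val, ZMod.cast_id, add_neg_cancel] at h1
      rw [ZMod.natCast_val, ZMod.cast_id] at h2
      exact ⟨s, h1, by linear_combination h2⟩
    choose φ hφ1 hφ2 using hφ
    have hd : finrank F W ≤ ∑ i ∈ Finset.range r, f 0 (φ i) := by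
      refine (hdec ω hω).trans (Finset.sum_le_sum fun i _ => le_trans (le_of_eq ?_) (hφ1 i))
      show _ = finrank F (Y i ⊓ End.eigenspace (ρ g) (c * w 0) : Submodule F (Fin n → F))
      rw [show Y i = End.eigenspace (ρ y) (ω ^ i) by show End.eigenspace (ρ y) (w i) = _; rw [hwc],
        show w 0 = 1 by rw [← Nat.cast_zero, hwc, pow_zero], mul_one, inf_comm]
    have hfib : ∀ b : ZMod r, ((Finset.range r).filter fun i => φ i = b).card ≤ 2 := by
      intro b
      rcases ((Finset.range r).filter fun i => φ i = b).eq_empty_or_nonempty with he | ⟨j, hj⟩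
      · rw [he]; simp
      obtain ⟨-, hj'⟩ := Finset.mem_filter.1 hj
      refine (Finset.card_le_card_of_injOn (fun i : ℕ => (i : ZMod r))
        (t := {(j : ZMod r), -1 - (j : ZMod r)}) (fun i hi => ?_) (fun i hi i' hi' h => ?_)).trans
          Finset.card_le_two
      · obtain ⟨-, hi'⟩ := Finset.mem_filter.1 hi
        have e := hφ2 i
        rw [hi', ← hj', hφ2 j] at e
        have e' : ((i : ZMod r) - j) * ((i : ZMod r) + j + 1) = 0 := by linear_combination e
        simp only [Finset.coe_insert, Finset.coe_singleton, Set.mem_insert_iff, Set.mem_singleton_iff]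
        rcases mul_eq_zero.1 e' with h | h
        · exact Or.inl (sub_eq_zero.1 h)
        · exact Or.inr (by linear_combination h)
      · have h1 := Finset.mem_range.1 (Finset.mem_filter.1 hi).1
        have h2 := Finset.mem_range.1 (Finset.mem_filter.1 hi').1
        have := congrArg ZMod.val h
        rwa [ZMod.val_natCast, ZMod.val_natCast, Nat.mod_eq_of_lt h1, Nat.mod_eq_of_lt h2] at this
    have hsum : ∑ i ∈ Finset.range r, f 0 (φ i) ≤ 2 * finrank F (Y 0) := by
      rw [Finset.sum_comp (fun b => f 0 b) φ]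
      refine (Finset.sum_le_sum (g := fun b => 2 * f 0 b) fun b _ => ?_).trans ?_
      · rw [smul_eq_mul]; exact Nat.mul_le_mul_right _ (hfib b)
      rw [← Finset.mul_sum]
      refine Nat.mul_le_mul_left 2 (sum_finrank_le _ ?_ fun b _ => inf_le_left)
      have hinj : Function.Injective fun b : ZMod r => c * w b := fun a b h =>
        ZMod.val_injective r (hω.pow_inj a.val_lt b.val_lt (mul_left_cancel₀ hc h))
      exact ((End.eigenspaces_iSupIndep (ρ g)).comp hinj).mono fun b => inf_le_right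
    calc r * finrank F W ≤ r * (2 * finrank F (Y 0)) := Nat.mul_le_mul_left r (hd.trans hsum)
      _ = 2 * (r * finrank F (Y 0)) := by ring
      _ ≤ 2 * n := Nat.mul_le_mul_left 2 (hE _ (pow_ne_zero _ (ξ.ne_zero)))

/-- All the bounds. -/
theorem bounds (hRp : IsPGroup r R) (hexp : Monoid.exponent R = r ∨ Monoid.exponent R = 4)
    {g : Matrix.GeneralLinearGroup (Fin n) F}
    (hg : g ∈ Subgroup.normalizer (SetLike.coe (R ⊔ Cfsg.Geo.scalars (Fin n) F))) {ϖ : ℕ}
    (hϖ : ϖ.Prime) (hgp : g ^ ϖ = 1) (hns : g ∉ Cfsg.Geo.scalars (Fin n) F) (c : F) :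
    (ϖ = 2 → 4 * finrank F (End.eigenspace (ρ g) c) ≤ 3 * n) ∧
    (ϖ = 3 → 3 * finrank F (End.eigenspace (ρ g) c) ≤ 2 * n) ∧
    (3 < ϖ → 2 * finrank F (End.eigenspace (ρ g) c) ≤ n) ∧
    (ϖ = 3 → ¬ 3 ∣ n → 2 * finrank F (End.eigenspace (ρ g) c) ≤ n) := by
  classical
  set d := finrank F (End.eigenspace (ρ g) c) with hd
  by_cases hc : c = 0
  · have hb : End.eigenspace (ρ g) c = ⊥ := by
      rw [hc, End.eigenspace_zero]
      exact LinearMap.ker_eq_bot.2 (ρ_injective g)
    have h0 : d = 0 := by rw [hd, hb, finrank_bot]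
    refine ⟨?_, ?_, ?_, ?_⟩ <;> intros <;> omega
  by_cases hmove : ∃ x ∈ R, g * x * g⁻¹ * x⁻¹ ∉ Cfsg.Geo.scalars (Fin n) F
  swap
  · push Not at hmove
    obtain ⟨x, hx, hxg⟩ : ∃ x ∈ R, g * x ≠ x * g := by
      by_contra hh
      push Not at hh
      exact hns (S.mem_scalars hh)
    obtain ⟨μ, hμ⟩ := hmove x hx
    have hμ' : g * x = sc μ * (x * g) := by
      rw [show sc μ = g * x * g⁻¹ * x⁻¹ from hμ]
      group
    have h2 : 2 * d ≤ n := two_mul_eigen_le (fun h => hxg (by rw [hμ', h, map_one, one_mul])) hμ' hc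
    refine ⟨?_, ?_, ?_, ?_⟩ <;> intros <;> omega
  -- intersection of `W` with a translate
  set W := End.eigenspace (ρ g) c with hW
  have hginv : ∀ v ∈ W, ρ g⁻¹ v = c⁻¹ • v := fun v hv => by
    have := congrArg (ρ g⁻¹) (End.mem_eigenspace_iff.1 hv)
    rw [← ρ_mul, inv_mul_cancel, ρ_one, map_smul] at this
    conv_rhs => rw [this, smul_smul, inv_mul_cancel₀ hc, one_smul]
  have hU : ∀ x : Matrix.GeneralLinearGroup (Fin n) F, ∀ v ∈ W ⊓ W.map (ρ x),
      ρ (g * x * g⁻¹ * x⁻¹) v = v ∧ ρ (g * (g * x * g⁻¹ * x⁻¹) * g⁻¹) v = v := by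
    rintro x _ ⟨hv, w, hw, rfl⟩
    have h1 : ρ (g * x * g⁻¹ * x⁻¹) (ρ x w) = ρ x w := by
      rw [← ρ_mul, inv_mul_cancel_right, ρ_mul, hginv w hw, map_smul, ρ_mul,
        End.mem_eigenspace_iff.1 hv, smul_smul, inv_mul_cancel₀ hc, one_smul]
    refine ⟨h1, ?_⟩
    rw [ρ_mul, hginv _ hv, map_smul, ρ_mul, h1, End.mem_eigenspace_iff.1 hv, smul_smul,
      inv_mul_cancel₀ hc, one_smul]
  have hdim : ∀ x : Matrix.GeneralLinearGroup (Fin n) F,
      2 * d ≤ n + finrank F (W ⊓ W.map (ρ x) : Submodule F (Fin n → F)) := fun x => by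
    have h1 := Submodule.finrank_sup_add_finrank_inf_eq W (W.map (ρ x))
    have h2 : finrank F (W.map (ρ x)) = d :=
      (LinearEquiv.finrank_eq (Submodule.equivMapOfInjective (ρ x) (ρ_injective x) W)).symm
    have h3 := Submodule.finrank_le (W ⊔ W.map (ρ x))
    rw [Module.finrank_fin_fun] at h3
    omega
  obtain ⟨x, hx, hxS⟩ := hmove
  have hrU : r * finrank F (W ⊓ W.map (ρ x) : Submodule F (Fin n → F)) ≤ n :=
    (Nat.mul_le_mul_left r (Submodule.finrank_mono fun v hv =>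
      End.mem_eigenspace_iff.2 (by rw [one_smul]; exact (hU x v hv).1))).trans
      (S.fix_bound (S.conj_mem hg hx) hxS one_ne_zero)
  have hrn : r ∣ n := S.prime_dvd (S.conj_mem hg hx) hxS
  have hr2 := S.prime.two_le
  have h4 : 4 * d ≤ 3 * n := by
    have := hdim x
    have : 2 * finrank F (W ⊓ W.map (ρ x) : Submodule F (Fin n → F)) ≤ n :=
      (Nat.mul_le_mul_right _ hr2).trans hrU
    omega
  have hodd : 3 ≤ ϖ → r ≠ ϖ → 2 * d ≤ n := by
    intro h3 hne
    obtain ⟨x, hx, hnc⟩ := S.exists_not_comm hg hgp ((Nat.coprime_primes S.prime hϖ).2 hne)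
      (hϖ.odd_of_ne_two (by omega)) (fun x hx => S.pow_mem_scalars hx) ⟨_, ‹x ∈ R›, hxS⟩
    have hyM := S.conj_mem hg hx
    obtain ⟨ζ, -, hζ⟩ := S.comm hyM ((Subgroup.mem_normalizer_iff.1 hg _).1 hyM)
    have hbot : W ⊓ W.map (ρ x) = ⊥ := by
      rw [Submodule.eq_bot_iff]
      intro v hv
      obtain ⟨e1, e2⟩ := hU x v hv
      have e := congrArg (fun k => ρ k v) hζ
      rw [ρ_mul, e2, e1, ρ_mul, ρ_sc, ρ_mul, e1, e2] at e
      by_contra hv0
      have hζ1 : ζ ≠ 1 := fun h => hnc (by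
        show _ * _ = _ * _
        rw [hζ, h, map_one, one_mul])
      refine hζ1 (Units.ext (smul_left_injective F hv0 ?_))
      rw [Units.val_one]
      show (ζ : F) • v = (1 : F) • v
      rw [one_smul]
      exact e.symm
    have := hdim x
    rw [hbot, finrank_bot] at this
    omega
  refine ⟨fun _ => h4, fun h3 => ?_, fun h3 => ?_, fun h3 hn3 => ?_⟩
  · by_cases hne : r = ϖ
    · have := hdim x
      have : 3 * finrank F (W ⊓ W.map (ρ x) : Submodule F (Fin n → F)) ≤ n :=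
        (Nat.mul_le_mul_right _ (by omega)).trans hrU
      omega
    · have := hodd (by omega) hne
      omega
  · by_cases hne : r = ϖ
    · have hr4 : 4 < r + 1 := by omega
      have hexpr : Monoid.exponent R = r := by
        refine hexp.resolve_right fun h => ?_
        haveI : Fact r.Prime := ⟨S.prime⟩
        obtain ⟨z, hz⟩ := exists_prime_orderOf_dvd_card' (G := Subgroup.center R) r (by rw [S.hZ])
        have h1 := Monoid.order_dvd_exponent (z : R)
        rw [Subgroup.orderOf_coe, hz, h] at h1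
        have h5 := (Nat.prime_dvd_prime_iff_eq S.prime Nat.prime_two).1
          (S.prime.dvd_of_dvd_pow (show r ∣ 2 ^ 2 from h1))
        omega
      exact S.special_bound (by omega) (fun x hx => congrArg Subtype.val
        (hexpr ▸ Monoid.pow_exponent_eq_one (⟨x, hx⟩ : R))) hRp hg (hne ▸ hgp) ⟨x, hx, hxS⟩ hc
    · exact hodd (by omega) hne
  · exact hodd (by omega) fun h => hn3 (h3 ▸ h ▸ hrn)

end Setup

end Cfsg.Agent.Components.ExtraspecialEigen
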