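/-
Groups with a Klein four Sylow 2-subgroup: fusion of involutions.
-/
import Cfsg.Agent.Transfer.Burnside
import Mathlib.GroupTheory.SpecificGroups.KleinFour

set_option autoImplicit false
set_option linter.style.haveILetI false

namespace Cfsg.Agent.Components

variable {G : Type*} [Group G]

/-- Either fusion in a Klein four Sylow subgroup is trivial or all its involutions are conjugate. -/
theorem kleinSylow_cases [Finite G] (P : Sylow 2 G) (hP : IsKleinFour (P : Subgroup G)) :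
    (Subgroup.normalizer (P : Set G) ≤ Subgroup.centralizer (P : Set G)) ∨
      ∀ x ∈ (P : Subgroup G), x ≠ 1 → ∀ y ∈ (P : Subgroup G), y ≠ 1 → IsConj x y := by
  haveI : Fact (Nat.Prime 2) := ⟨Nat.prime_two⟩
  by_cases h : Subgroup.normalizer (P : Set G) ≤ Subgroup.centralizer (P : Set G)
  · exact Or.inl h
  right
  obtain ⟨n, hn, hnc⟩ := SetLike.not_le_iff_exists.mp h
  have h4 : Nat.card (P : Subgroup G) = 4 := hP.card_four
  have hsq : ∀ x ∈ (P : Subgroup G), x * x = 1 := fun x hx => by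
    have := Monoid.pow_exponent_eq_one (⟨x, hx⟩ : (P : Subgroup G))
    rw [hP.exponent_two, pow_two] at this
    exact congrArg Subtype.val this
  have hcomm : ∀ x ∈ (P : Subgroup G), ∀ y ∈ (P : Subgroup G), x * y = y * x := fun x hx y hy => by
    have := hsq _ (mul_mem hx hy)
    calc x * y = x * (x * y * (x * y)) * y := by rw [this, mul_one]
      _ = (x * x) * y * x * (y * y) := by group
      _ = y * x := by rw [hsq x hx, hsq y hy, one_mul, mul_one]
  obtain ⟨k, r, hr, hm⟩ := Nat.exists_eq_pow_mul_and_not_dvd (orderOf_pos n).ne' 2 (by norm_num)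
  have hcop : Nat.Coprime (2 ^ k) r :=
    Nat.Coprime.pow_left k ((Nat.Prime.coprime_iff_not_dvd Nat.prime_two).mpr hr)
  have hnr : n ^ r ∈ (P : Subgroup G) := by
    have hz : IsPGroup 2 (Subgroup.zpowers (n ^ r)) := IsPGroup.of_card (n := k) (by
      rw [Nat.card_zpowers, orderOf_pow_of_dvd (by rintro rfl; exact hr (dvd_zero 2)) (hm ▸ dvd_mul_left r _),
        hm, Nat.mul_div_cancel _ (Nat.pos_of_ne_zero (by rintro rfl; exact hr (dvd_zero 2)))])
    have hs : IsPGroup 2 ((P : Subgroup G) ⊔ Subgroup.zpowers (n ^ r) : Subgroup G) :=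
      P.2.to_sup_of_normal_left' hz (Subgroup.zpowers_le.mpr (pow_mem hn r))
    exact (P.3 hs le_sup_left).le (le_sup_right (a := (P : Subgroup G)) (Subgroup.mem_zpowers _))
  set m := n ^ (2 ^ k) with hmdef
  have hmN : m ∈ Subgroup.normalizer (P : Set G) := pow_mem hn _
  have hmodd : m ^ r = 1 := by rw [hmdef, ← pow_mul, ← hm, pow_orderOf_eq_one]
  have hmc : m ∉ Subgroup.centralizer (P : Set G) := by
    intro hmc
    apply hnc
    have h1 : n ^ r ∈ Subgroup.centralizer (P : Set G) :=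
      Subgroup.mem_centralizer_iff.mpr fun x hx => hcomm x hx _ hnr
    obtain ⟨a, b, hab⟩ : ∃ a b : ℤ, ((2 ^ k : ℕ) : ℤ) * a + (r : ℤ) * b = 1 :=
      ⟨_, _, (Nat.gcd_eq_gcd_ab (2 ^ k) r).symm.trans (by rw [hcop]; rfl)⟩
    have : n = m ^ a * (n ^ r) ^ b := by
      rw [hmdef, ← zpow_natCast, ← zpow_natCast n r, ← zpow_mul, ← zpow_mul, ← zpow_add, hab, zpow_one]
    rw [this]
    exact mul_mem (zpow_mem hmc _) (zpow_mem h1 _)
  have hfix : ∀ x ∈ (P : Subgroup G), x ≠ 1 → m * x * m⁻¹ ≠ x := by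
    intro x hx hx1 hmx
    apply hmc
    rw [Subgroup.mem_centralizer_iff]
    intro y hy
    by_cases hy' : y = 1 ∨ y = x
    · rcases hy' with rfl | rfl
      · rw [one_mul, mul_one]
      · exact (mul_inv_eq_iff_eq_mul.mp hmx).symm
    push Not at hy'
    classical
    have hyP : m * y * m⁻¹ ∈ (P : Subgroup G) := (Subgroup.mem_normalizer_iff.mp hmN y).mp hy
    have hy2 : m * y * m⁻¹ = y ∨ m * y * m⁻¹ = x * y := by
      by_contra hcon
      push Not at hcon
      haveI := Fintype.ofFinite (P : Subgroup G)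
      have hsub : ({⟨1, one_mem _⟩, ⟨x, hx⟩, ⟨y, hy⟩, ⟨x * y, mul_mem hx hy⟩, ⟨m * y * m⁻¹, hyP⟩} :
          Finset (P : Subgroup G)).card ≤ 4 := by
        rw [← h4, Nat.card_eq_fintype_card]; exact Finset.card_le_univ _
      have e1 : m * y * m⁻¹ ≠ 1 := fun e => hy'.1 (by simpa using e)
      have e2 : m * y * m⁻¹ ≠ x := fun e => hy'.2 (by
        have e' : m * y * m⁻¹ = m * x * m⁻¹ := e.trans hmx.symm
        simpa using e')
      have e3 : x * y ≠ 1 := fun e => hy'.2 (mul_left_cancel (e.trans (hsq x hx).symm))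
      rw [Finset.card_insert_of_notMem (by simp [Ne.symm hx1, Ne.symm hy'.1, Ne.symm e3, Ne.symm e1]),
        Finset.card_insert_of_notMem (by simp [Ne.symm hy'.2, hy'.1, Ne.symm e2]),
        Finset.card_insert_of_notMem (by simp [hx1, hy'.2, Ne.symm hcon.1]),
        Finset.card_insert_of_notMem (by simp [Ne.symm hcon.2]), Finset.card_singleton] at hsub
      omega
    rcases hy2 with e | e
    · exact (mul_inv_eq_iff_eq_mul.mp e).symm
    exfalso
    -- `m ^ 2` fixes `y`, hence so does `m`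
    have h2 : m ^ 2 * y * (m ^ 2)⁻¹ = y := by
      calc m ^ 2 * y * (m ^ 2)⁻¹ = m * (m * y * m⁻¹) * m⁻¹ := by rw [pow_two]; group
        _ = (m * x * m⁻¹) * (m * y * m⁻¹) := by rw [congrArg (fun z => m * z * m⁻¹) e]; group
        _ = x * x * y := by rw [hmx, e, mul_assoc]
        _ = y := by rw [hsq x hx, one_mul]
    obtain ⟨s, hs⟩ : ∃ s, r = 2 * s + 1 := Nat.odd_iff.mpr (Nat.two_dvd_ne_zero.mp hr)
    have hc2 : Commute (m ^ 2) y := mul_inv_eq_iff_eq_mul.mp h2
    have h3 : (m ^ 2) ^ s * m = 1 := by rw [← pow_mul, ← pow_succ, ← hs, hmodd]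
    have h4' : Commute m y := by
      rw [show m = ((m ^ 2) ^ s)⁻¹ from eq_inv_of_mul_eq_one_right h3]
      exact (hc2.pow_left s).inv_left
    rw [h4'.eq, mul_inv_cancel_right] at e
    exact hx1 (by simpa using e.symm)
  intro x hx hx1 y hy hy1
  classical
  set x1 := m * x * m⁻¹ with hx1def
  have hx1P : x1 ∈ (P : Subgroup G) := (Subgroup.mem_normalizer_iff.mp hmN x).mp hx
  set x2 := m * x1 * m⁻¹ with hx2def
  have hx2P : x2 ∈ (P : Subgroup G) := (Subgroup.mem_normalizer_iff.mp hmN x1).mp hx1P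
  have hx11 : x1 ≠ 1 := fun e => hx1 (by simpa [hx1def] using e)
  have hx21 : x2 ≠ 1 := fun e => hx11 (by simpa [hx2def] using e)
  have d1 : x1 ≠ x := hfix x hx hx1
  have d2 : x2 ≠ x1 := hfix x1 hx1P hx11
  have d3 : x2 ≠ x := by
    intro e
    have hc2 : Commute (m ^ 2) x := mul_inv_eq_iff_eq_mul.mp (by
      calc m ^ 2 * x * (m ^ 2)⁻¹ = x2 := by rw [hx2def, hx1def, pow_two]; group
        _ = x := e)
    obtain ⟨s, hs⟩ : ∃ s, r = 2 * s + 1 := Nat.odd_iff.mpr (Nat.two_dvd_ne_zero.mp hr)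
    have h3 : (m ^ 2) ^ s * m = 1 := by rw [← pow_mul, ← pow_succ, ← hs, hmodd]
    have h4' : Commute m x := by
      rw [show m = ((m ^ 2) ^ s)⁻¹ from eq_inv_of_mul_eq_one_right h3]
      exact (hc2.pow_left s).inv_left
    exact d1 (by rw [hx1def, h4'.eq, mul_inv_cancel_right])
  by_contra hcon
  have n1 : y ≠ x := fun e => hcon (e ▸ IsConj.refl _)
  have n2 : y ≠ x1 := fun e => hcon (isConj_iff.mpr ⟨m, e.symm⟩)
  have n3 : y ≠ x2 := fun e => hcon (isConj_iff.mpr ⟨m * m, by rw [e, hx2def, hx1def]; group⟩)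
  haveI := Fintype.ofFinite (P : Subgroup G)
  have hsub : ({⟨1, one_mem _⟩, ⟨x, hx⟩, ⟨x1, hx1P⟩, ⟨x2, hx2P⟩, ⟨y, hy⟩} :
      Finset (P : Subgroup G)).card ≤ 4 := by
    rw [← h4, Nat.card_eq_fintype_card]; exact Finset.card_le_univ _
  rw [Finset.card_insert_of_notMem (by simp [Ne.symm hx1, Ne.symm hy1, Ne.symm hx11, Ne.symm hx21]),
    Finset.card_insert_of_notMem (by simp [Ne.symm d1, Ne.symm d3, Ne.symm n1]),
    Finset.card_insert_of_notMem (by simp [Ne.symm d2, Ne.symm n2]),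
    Finset.card_insert_of_notMem (by simp [Ne.symm n3]), Finset.card_singleton] at hsub
  omega

theorem kleinSylow_injective [Finite G] (P : Sylow 2 G) (hP : IsKleinFour (P : Subgroup G))
    (h : Subgroup.normalizer (P : Set G) ≤ Subgroup.centralizer (P : Set G)) {x y : G}
    (hx : x ∈ (P : Subgroup G)) (hy : y ∈ (P : Subgroup G)) (hxy : IsConj x y) : x = y := by
  haveI : Fact (Nat.Prime 2) := ⟨Nat.prime_two⟩
  have hPc : (P : Subgroup G) ≤ Subgroup.centralizer (P : Set G) :=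
    Subgroup.le_normalizer.trans h
  obtain ⟨g, rfl⟩ := isConj_iff.mp hxy
  obtain ⟨n, hn, e⟩ := Transfer.burnside_fusion_elem P (hPc hx) (hPc hy)
  rw [← e, ← Subgroup.mem_centralizer_iff.mp (h hn) x hx, mul_inv_cancel_right]

open scoped Classical in
/-- The number of classes of involutions is the number of conjugacy classes met by `P∖1`. -/
theorem kleinSylow_count [Finite G] (P : Sylow 2 G) (hP : IsKleinFour (P : Subgroup G)) :
    ((Subgroup.normalizer (P : Set G) ≤ Subgroup.centralizer (P : Set G)) ∧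
      Nat.card {C : ConjClasses G // ∃ t : G, orderOf t = 2 ∧ ConjClasses.mk t = C} = 3) ∨
    ((∀ x ∈ (P : Subgroup G), x ≠ 1 → ∀ y ∈ (P : Subgroup G), y ≠ 1 → IsConj x y) ∧
      Nat.card {C : ConjClasses G // ∃ t : G, orderOf t = 2 ∧ ConjClasses.mk t = C} = 1) := by
  haveI : Fact (Nat.Prime 2) := ⟨Nat.prime_two⟩
  have hinv : ∀ x ∈ (P : Subgroup G), x ≠ 1 → orderOf x = 2 := fun x hx hx1 => by
    refine orderOf_eq_prime ?_ hx1
    have := Monoid.pow_exponent_eq_one (⟨x, hx⟩ : (P : Subgroup G))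
    rw [hP.exponent_two] at this
    exact congrArg Subtype.val this
  set C := {C : ConjClasses G // ∃ t : G, orderOf t = 2 ∧ ConjClasses.mk t = C}
  let f : {x : (P : Subgroup G) // x ≠ 1} → C := fun x =>
    ⟨ConjClasses.mk ((x : (P : Subgroup G)) : G),
      _, hinv _ x.1.2 (fun e => x.2 (Subtype.ext e)), rfl⟩
  have hsurj : Function.Surjective f := by
    rintro ⟨c, t, ht, rfl⟩
    have hz : IsPGroup 2 (Subgroup.zpowers t) := IsPGroup.of_card (n := 1) (by rw [Nat.card_zpowers, ht, pow_one])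
    obtain ⟨Q, hQ⟩ := hz.exists_le_sylow
    obtain ⟨g, hg⟩ := MulAction.exists_smul_eq G Q P
    have htP : g * t * g⁻¹ ∈ (P : Subgroup G) := by
      rw [← hg]
      exact ⟨t, hQ (Subgroup.mem_zpowers t), rfl⟩
    refine ⟨⟨⟨_, htP⟩, fun e => ?_⟩, Subtype.ext (ConjClasses.mk_eq_mk_iff_isConj.mpr (isConj_iff.mpr ⟨g, rfl⟩).symm)⟩
    have h1 : g * t * g⁻¹ = 1 := congrArg Subtype.val e
    rw [show t = 1 by simpa using h1, orderOf_one] at ht
    omega
  haveI := Fintype.ofFinite (P : Subgroup G)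
  have h3 : Nat.card {x : (P : Subgroup G) // x ≠ 1} = 3 := by
    rw [Nat.card_eq_fintype_card, Fintype.card_subtype_compl, Fintype.card_subtype_eq, ← Nat.card_eq_fintype_card]
    rw [hP.card_four]
  rcases kleinSylow_cases P hP with h | h
  · refine Or.inl ⟨h, ?_⟩
    rw [← Nat.card_eq_of_bijective f ⟨fun a b e => ?_, hsurj⟩, h3]
    exact Subtype.ext (Subtype.ext (kleinSylow_injective P hP h a.1.2 b.1.2
      (ConjClasses.mk_eq_mk_iff_isConj.mp (congrArg Subtype.val e))))
  · refine Or.inr ⟨h, ?_⟩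
    haveI : Subsingleton C := ⟨fun a b => by
      obtain ⟨x, rfl⟩ := hsurj a
      obtain ⟨y, rfl⟩ := hsurj b
      exact Subtype.ext (ConjClasses.mk_eq_mk_iff_isConj.mpr (h _ x.1.2 (fun e => x.2 (Subtype.ext e)) _
        y.1.2 (fun e => y.2 (Subtype.ext e))))⟩
    haveI : Nonempty {x : (P : Subgroup G) // x ≠ 1} := by
      rw [← not_isEmpty_iff]
      intro he
      rw [Nat.card_of_isEmpty] at h3
      omega
    exact Nat.card_eq_one_iff_unique.mpr ⟨inferInstance, ‹Nonempty _›.map f⟩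

end Cfsg.Agent.Components
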