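import Cfsg.Agent.Components.MFourCentChecks
import Cfsg.Agent.Components.EightBasics
import Cfsg.Agent.M24Orbits.Elements
import Cfsg.Agent.Golay.OctadStab
import Cfsg.Agent.Linear.Card
import Cfsg.Agent.FGS3.PGroupFrattini
import Cfsg.Agent.Core.Cores
import Cfsg.Prelude.Def_MonsterType

/-! The centraliser of an involution of `M24` fixing an octad: `2^(1+6):L3(2)`. -/

set_option autoImplicit false
set_option maxRecDepth 4000
set_option linter.style.haveILetI false

open Subgroup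
open scoped Pointwise commutatorElement

namespace Cfsg.Agent.Components.MFourCent

open Cfsg.Agent.Golay Cfsg.Agent.M24Orbits

/-- What the concrete computation yields about an involution `z`. -/
def Good {G : Type*} [Group G] (z : G) : Prop :=
  ∃ Q K : Subgroup G, Nat.card Q = 2 ^ 7 ∧ z ∈ Q ∧ Q ⊓ K = ⊥ ∧ Q ⊔ K = centralizer ({z} : Set G) ∧
    centralizer ({z} : Set G) ≤ normalizer (Q : Set G) ∧
    Nonempty (K ≃* Matrix.SpecialLinearGroup (Fin 3) (ZMod 2)) ∧
    (∀ x ∈ Q, x * x = 1 ∨ x * x = z) ∧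
    (∀ x ∈ centralizer ({z} : Set G), (∀ y ∈ Q, x * y = y * x) → x = 1 ∨ x = z) ∧
    ∀ N : Subgroup G, N ≤ K → K ≤ normalizer (N : Set G) → IsPGroup 2 N → N = ⊥

theorem good_map {G H : Type*} [Group G] [Group H] (e : G ≃* H) {z : G} (h : Good z) : Good (e z) := by
  obtain ⟨Q, K, hc, hz, hdis, hsup, hn, ⟨ψ⟩, hsq, hcen, hrad⟩ := h
  have hC : centralizer ({e z} : Set H) = (centralizer ({z} : Set G)).map e.toMonoidHom := by
    ext x
    rw [Subgroup.mem_map_equiv, mem_centralizer_singleton_iff, mem_centralizer_singleton_iff,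
      ← e.injective.eq_iff, map_mul, map_mul, MulEquiv.apply_symm_apply]
  refine ⟨Q.map e.toMonoidHom, K.map e.toMonoidHom, ?_, mem_map_of_mem e.toMonoidHom hz, ?_, ?_, ?_,
    ⟨((e.subgroupMap K).symm).trans ψ⟩, ?_, ?_, ?_⟩
  · rw [card_map_of_injective (f := e.toMonoidHom) e.injective, hc]
  · rw [← Subgroup.map_inf _ _ e.toMonoidHom e.injective, hdis, Subgroup.map_bot]
  · rw [← Subgroup.map_sup, hsup, hC]
  · rw [hC]
    exact (Subgroup.map_mono hn).trans (Subgroup.le_normalizer_map _)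
  · rintro _ ⟨x, hx, rfl⟩
    rcases hsq x hx with h' | h'
    · left; rw [← map_mul, h', map_one]
    · right; rw [← map_mul, h']; rfl
  · intro x hx hc
    rw [hC] at hx
    obtain ⟨y, hy, rfl⟩ := hx
    rcases hcen y hy (fun u hu => e.injective (by
      rw [map_mul, map_mul]; exact hc (e u) (mem_map_of_mem e.toMonoidHom hu))) with h' | h'
    · left; rw [h']; exact map_one _
    · right; rw [h']; rfl
  · intro N hN hKN hp
    have h1 : N.comap e.toMonoidHom = ⊥ := by
      refine hrad _ ?_ ?_ ?_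
      · intro x hx
        obtain ⟨y, hy, e'⟩ := hN hx
        rwa [← e.injective e']
      · refine le_trans (fun k hk => ?_) (Subgroup.le_normalizer_comap e.toMonoidHom)
        exact hKN (mem_map_of_mem e.toMonoidHom hk)
      · exact hp.comap_of_injective e.toMonoidHom e.injective
    rw [eq_bot_iff]
    intro x hx
    have : e.symm x ∈ N.comap e.toMonoidHom := by simpa using hx
    rw [h1, mem_bot] at this
    simpa using congrArg e this

/-- The set of permutations with codes in a list. -/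
def genSet (gens : List ℕ) : Set (Equiv.Perm Cfsg.GolayPt) := {σ | ∃ c ∈ gens, σ = permOf c}

theorem group_list {gens : List ℕ} {T : OrbTree} {N : ℕ} (h : groupOK gens T N = true)
    (hm : gens.all (fun g => (collectP gens T idCode [idCode]).contains (comp idCode g)) = true) :
    closure (genSet gens) ≤ M24 ∧ Nat.card (closure (genSet gens)) = N ∧
      (∀ σ, σ ∈ closure (genSet gens) ↔ ∃ x ∈ collectP gens T idCode [idCode], permOf x = σ) ∧
      (∀ x ∈ collectP gens T idCode [idCode], permOK x = true ∧ x < 2 ^ 120) ∧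
      ∀ g ∈ gens, permOK g = true := by
  classical
  obtain ⟨P, hPM, hPc, hcov⟩ := groupOK_spec h
  have h' := h
  simp only [groupOK, Bool.and_eq_true, List.all_eq_true, beq_iff_eq] at h'
  obtain ⟨hg, hlen, -⟩ := h'
  set L := collectP gens T idCode [idCode]
  have hgok : ∀ g ∈ gens, permOK g = true := fun g hg' => permOK_of_isAut (hg g hg')
  have hL : ∀ x ∈ L, permOK x = true ∧ permOf x ∈ closure (genSet gens) ∧ x < 2 ^ 120 :=
    collectP_spec gens (Subgroup.closure (genSet gens)) (fun c hc => ⟨hgok c hc, Subgroup.subset_closure ⟨c, hc, rfl⟩⟩)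
      (fun x => x < 2 ^ 120) comp_lt T idCode [idCode] ⟨idCode_ok, permOf_idCode ▸ one_mem _, by norm_num [idCode]⟩
      (by intro x hx; rw [List.mem_singleton] at hx; subst hx
          exact ⟨idCode_ok, permOf_idCode ▸ one_mem _, by norm_num [idCode]⟩)
  have hsub : (P : Set (Equiv.Perm Cfsg.GolayPt)) ⊆ ((L.map permOf).toFinset : Set _) := fun σ hσ => by
    obtain ⟨y, hy, -, rfl⟩ := hcov σ hσ
    simpa using ⟨y, hy, rfl⟩
  have heq := Set.eq_of_subset_of_ncard_le hsub (by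
    rw [Set.ncard_coe_finset, ← Nat.card_coe_set_eq]
    refine (List.toFinset_card_le _).trans ?_
    rw [List.length_map, hlen]
    exact hPc.ge) (Set.toFinite _)
  have hP : ∀ σ, σ ∈ P ↔ ∃ x ∈ L, permOf x = σ := fun σ => by rw [← SetLike.mem_coe, heq]; simp
  have hle : closure (genSet gens) ≤ P := by
    rw [closure_le]
    rintro σ ⟨c, hc, rfl⟩
    refine (hP _).2 ⟨comp idCode c, by simpa using List.all_eq_true.1 hm c hc, ?_⟩
    rw [(permOf_comp idCode_ok (hgok c hc)).2, permOf_idCode, one_mul]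
  have hPle : P ≤ closure (genSet gens) := fun σ hσ => by
    obtain ⟨x, hx, rfl⟩ := (hP σ).1 hσ
    exact (hL x hx).2.1
  have e : closure (genSet gens) = P := le_antisymm hle hPle
  exact ⟨e ▸ hPM, e ▸ hPc, e ▸ hP, fun x hx => ⟨(hL x hx).1, (hL x hx).2.2⟩, hgok⟩

theorem code_eq {x y : ℕ} (hx : permOK x = true ∧ x < 2 ^ 120) (hy : permOK y = true ∧ y < 2 ^ 120)
    (h : permOf x = permOf y) : x = y := code_ext hx.2 hy.2 hx.1 hy.1 h

theorem id_facts : permOK idCode = true ∧ idCode < 2 ^ 120 := ⟨idCode_ok, by norm_num [idCode]⟩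

theorem q_list : closure (genSet qgens) ≤ M24 ∧ Nat.card (closure (genSet qgens)) = 128 ∧
    (∀ σ, σ ∈ closure (genSet qgens) ↔ ∃ x ∈ qelts, permOf x = σ) ∧
    (∀ x ∈ qelts, permOK x = true ∧ x < 2 ^ 120) ∧ ∀ g ∈ qgens, permOK g = true :=
  group_list qgroup_ok basic_ok.1

theorem k_list : closure (genSet kgens) ≤ M24 ∧ Nat.card (closure (genSet kgens)) = 168 ∧
    (∀ σ, σ ∈ closure (genSet kgens) ↔ ∃ x ∈ kelts, permOf x = σ) ∧
    (∀ x ∈ kelts, permOK x = true ∧ x < 2 ^ 120) ∧ ∀ g ∈ kgens, permOK g = true :=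
  group_list kgroup_ok basic_ok.2.1

theorem r_mem : r2a ∈ qelts := by simpa using basic_ok.2.2.1

theorem r_facts : permOK r2a = true ∧ r2a < 2 ^ 120 := q_list.2.2.2.1 r2a r_mem

theorem r_sq : permOf r2a * permOf r2a = 1 := by
  have h := List.all_eq_true.1 square_ok r2a r_mem
  simp only [Bool.or_eq_true, beq_iff_eq] at h
  obtain ⟨hc, ec⟩ := permOf_comp r_facts.1 r_facts.1
  rcases h with h | h
  · rw [← ec, h, permOf_idCode]
  · rw [h] at ec
    have h1 : permOf r2a = 1 := mul_left_cancel (a := permOf r2a) (by rw [mul_one]; exact ec.symm)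
    rw [h1, one_mul]

theorem octad_invol_ncard : 11385 ≤ {g : Equiv.Perm Cfsg.GolayPt |
    ∃ h ∈ M24, g = h * permOf r2a * h⁻¹}.ncard := by
  classical
  let F : Finset Cfsg.GolayPt → Finset (Equiv.Perm Cfsg.GolayPt) := fun o =>
    (Finset.univ.filter fun g => g ∈ M24 ⊓ fixingSubgroup (Equiv.Perm Cfsg.GolayPt) (↑o : Set Cfsg.GolayPt)).erase 1
  let O : Finset (Finset Cfsg.GolayPt) := (Set.toFinite Cfsg.octads).toFinset
  have hOm : ∀ o, o ∈ O ↔ o ∈ Cfsg.octads := fun o => (Set.toFinite Cfsg.octads).mem_toFinset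
  have hO : O.card = 759 := by
    rw [← Set.ncard_eq_toFinset_card Cfsg.octads (Set.toFinite _)]; exact octads_ncard
  have hfix : ∀ o ∈ O, ∀ g ∈ F o, (Finset.univ.filter fun p => g p = p) = o := by
    intro o ho g hg
    obtain ⟨hg1, hg2⟩ := Finset.mem_erase.1 hg
    have hg3 := (Finset.mem_filter.1 hg2).2
    ext p
    simp only [Finset.mem_filter, Finset.mem_univ, true_and]
    exact ⟨fun hp => by_contra fun hpo => hg1 (fixer_free ((hOm o).1 ho) hg3 hpo hp),
      fun hp => (mem_fixer_iff.1 hg3).2 p hp⟩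
  have hcard : ∀ o ∈ O, (F o).card = 15 := by
    intro o ho
    have h16 := fixer_card ((hOm o).1 ho)
    rw [Finset.card_erase_of_mem (by simp)]
    have : (Finset.univ.filter fun g => g ∈ M24 ⊓ fixingSubgroup (Equiv.Perm Cfsg.GolayPt)
        (↑o : Set Cfsg.GolayPt)).card = 16 := by
      rw [← h16, ← Set.ncard_coe_finset, ← Nat.card_coe_set_eq]
      exact Nat.card_congr (Equiv.subtypeEquivRight fun g => by simp)
    omega
  have hU : (O.biUnion F).card = 11385 := by
    rw [Finset.card_biUnion (fun o ho o' ho' hne => Finset.disjoint_left.2 fun g hg hg' =>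
      hne ((hfix o ho g hg).symm.trans (hfix o' ho' g hg'))), Finset.sum_congr rfl hcard, Finset.sum_const, hO]
    rfl
  rw [← hU, ← Set.ncard_coe_finset]
  refine Set.ncard_le_ncard (fun g hg => ?_) (Set.toFinite _)
  obtain ⟨o, ho, hgo⟩ := Finset.mem_biUnion.1 hg
  obtain ⟨hg1, hg2⟩ := Finset.mem_erase.1 hgo
  have hg3 := (Finset.mem_filter.1 hg2).2
  have ho2 : orderOf g = 2 := orderOf_eq_prime (by rw [pow_two]; exact fixer_sq ((hOm o).1 ho) hg3) hg1
  rcases two_classes hg3.1 ho2 with ⟨-, h⟩ | ⟨h0, -⟩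
  · exact h
  · rw [hfix o ho g hgo, ((hOm o).1 ho).2] at h0
    omega

theorem r_memM : permOf r2a ∈ M24 := q_list.1 ((q_list.2.2.1 _).2 ⟨r2a, r_mem, rfl⟩)

theorem cent_card : Nat.card ↥(centralizer ({(⟨permOf r2a, r_memM⟩ : ↥M24)} : Set ↥M24)) ≤ 21504 := by
  classical
  set T := {g : Equiv.Perm Cfsg.GolayPt | ∃ h ∈ M24, g = h * permOf r2a * h⁻¹}
  set C := centralizer ({(⟨permOf r2a, r_memM⟩ : ↥M24)} : Set ↥M24)
  choose h hh he using fun t : T => t.2
  let f : T × C → ↥M24 := fun tc => ⟨h tc.1, hh tc.1⟩ * tc.2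
  have hf : Function.Injective f := by
    rintro ⟨t, c⟩ ⟨t', c'⟩ e
    have hc : ∀ c : C, (c.1 : Equiv.Perm Cfsg.GolayPt) * permOf r2a * (c.1 : Equiv.Perm Cfsg.GolayPt)⁻¹ = permOf r2a :=
      fun c => by
        have := congrArg Subtype.val (mem_centralizer_singleton_iff.1 c.2)
        simp only [coe_mul] at this
        rw [this, mul_inv_cancel_right]
    have key : ∀ (t : T) (c : C), (t : Equiv.Perm Cfsg.GolayPt) = ((f (t, c) : ↥M24) : Equiv.Perm Cfsg.GolayPt) *
        permOf r2a * ((f (t, c) : ↥M24) : Equiv.Perm Cfsg.GolayPt)⁻¹ := by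
      intro t c
      conv_lhs => rw [he t, ← hc c]
      simp [f, mul_assoc]
    have ht : t = t' := Subtype.ext (by rw [key t c, key t' c', e])
    subst ht
    exact Prod.ext rfl (Subtype.ext (mul_left_cancel e))
  have h1 := Nat.card_le_card_of_injective f hf
  rw [Nat.card_prod, M24_card] at h1
  have h2 : 11385 ≤ Nat.card T := by
    rw [Nat.card_coe_set_eq]; exact octad_invol_ncard
  have h3 : 11385 * Nat.card C ≤ 244823040 := le_trans (Nat.mul_le_mul h2 le_rfl) h1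
  omega

theorem card_SL_three_two : Nat.card (Matrix.SpecialLinearGroup (Fin 3) (ZMod 2)) = 168 := by
  have h := Linear.sub_one_mul_card_SL (F := ZMod 2) 3
  simp only [ZMod.card, Fin.prod_univ_three] at h
  norm_num at h
  rw [Nat.card_eq_fintype_card]
  exact h

theorem lk_one : matOf (lk idCode) = 1 := inj_ok.1

theorem k_equiv : Nonempty (closure (genSet kgens) ≃* Matrix.SpecialLinearGroup (Fin 3) (ZMod 2)) := by
  classical
  obtain ⟨-, hKc, hKm, hKok, hKg⟩ := k_list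
  set K := closure (genSet kgens)
  have hcode : ∀ σ : K, ∃ x ∈ kelts, permOf x = σ := fun σ => (hKm _).1 σ.2
  choose cd hcd hcde using hcode
  have hcd_eq : ∀ (σ : K) (x : ℕ), x ∈ kelts → permOf x = σ → cd σ = x := fun σ x hx e =>
    code_eq (hKok _ (hcd σ)) (hKok x hx) ((hcde σ).trans e.symm)
  let φ : K → Matrix.SpecialLinearGroup (Fin 3) (ZMod 2) := fun σ =>
    ⟨matOf (lk (cd σ)), of_decide_eq_true (List.all_eq_true.1 det_ok _ (hcd σ))⟩
  have hone : φ 1 = 1 := by
    apply Subtype.ext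
    show matOf (lk (cd 1)) = 1
    rw [hcd_eq 1 idCode (groupOK_spec.collectP_acc kgens ktree idCode [idCode] idCode (by simp))
      (by rw [permOf_idCode]; rfl), lk_one]
  have hgen : ∀ (σ : K) g (hg : g ∈ kgens),
      φ (σ * ⟨permOf g, Subgroup.subset_closure ⟨g, hg, rfl⟩⟩) = φ σ * φ ⟨permOf g, Subgroup.subset_closure ⟨g, hg, rfl⟩⟩ := by
    have key : ∀ (σ : K) g (hg : g ∈ kgens),
        matOf (lk (cd (σ * ⟨permOf g, Subgroup.subset_closure ⟨g, hg, rfl⟩⟩))) = matOf (lk (cd σ)) * matOf (lk g) := by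
      intro σ g hg
      obtain ⟨h1, h2⟩ := permOf_comp (hKok _ (hcd σ)).1 (hKg g hg)
      have hmem : comp (cd σ) g ∈ kelts := by
        obtain ⟨y, hy, e⟩ := (hKm _).1 (σ * ⟨permOf g, Subgroup.subset_closure ⟨g, hg, rfl⟩⟩).2
        rw [coe_mul] at e
        rw [← code_eq (hKok y hy) ⟨h1, comp_lt _ _⟩ (by rw [h2, hcde σ, e])]
        exact hy
      rw [hcd_eq _ (comp (cd σ) g) hmem (by rw [h2, hcde σ]; rfl)]
      exact of_decide_eq_true (List.all_eq_true.1 (List.all_eq_true.1 hom_ok _ (hcd σ)) g hg)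
    intro σ g hg
    apply Subtype.ext
    rw [Matrix.SpecialLinearGroup.coe_mul]
    show matOf (lk (cd _)) = matOf (lk (cd σ)) * matOf (lk (cd _))
    have h1 := key 1 g hg
    rw [one_mul, hcd_eq 1 idCode (groupOK_spec.collectP_acc kgens ktree idCode [idCode] idCode (by simp))
      (by rw [permOf_idCode]; rfl), lk_one, one_mul] at h1
    rw [key σ g hg, h1]
  have hmul : ∀ τ (hτ : τ ∈ K) (σ : K), φ (σ * ⟨τ, hτ⟩) = φ σ * φ ⟨τ, hτ⟩ := by
    intro τ hτ
    have hτ' : τ ∈ Submonoid.closure (genSet kgens) := by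
      rw [← Subgroup.closure_toSubmonoid_of_finite]; exact hτ
    suffices H : ∃ h : τ ∈ K, ∀ σ : K, φ (σ * ⟨τ, h⟩) = φ σ * φ ⟨τ, h⟩ from H.choose_spec
    refine Submonoid.closure_induction_right (motive := fun τ _ =>
      ∃ h : τ ∈ K, ∀ σ : K, φ (σ * ⟨τ, h⟩) = φ σ * φ ⟨τ, h⟩) ⟨K.one_mem, fun σ => ?_⟩ ?_ hτ'
    · rw [show (⟨1, K.one_mem⟩ : K) = 1 from rfl, mul_one, hone, mul_one]
    · rintro u _ w ⟨g, hg, rfl⟩ ⟨hu, ih⟩
      refine ⟨K.mul_mem hu (Subgroup.subset_closure ⟨g, hg, rfl⟩), fun σ => ?_⟩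
      rw [show (⟨u * permOf g, _⟩ : K) = ⟨u, hu⟩ * ⟨permOf g, Subgroup.subset_closure ⟨g, hg, rfl⟩⟩ from rfl,
        ← mul_assoc, hgen _ g hg, ih σ, hgen _ g hg, mul_assoc]
  let ψ : K →* Matrix.SpecialLinearGroup (Fin 3) (ZMod 2) :=
    MonoidHom.mk' φ fun σ τ => hmul τ.1 τ.2 σ
  refine ⟨MulEquiv.ofBijective ψ ((Nat.bijective_iff_injective_and_card ψ).2 ⟨?_, ?_⟩)⟩
  · rw [injective_iff_map_eq_one]
    intro σ hσ
    have h := List.all_eq_true.1 inj_ok.2 _ (hcd σ)
    simp only [Bool.or_eq_true, beq_iff_eq, decide_eq_true_eq] at h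
    rcases h with h | h
    · exact Subtype.ext (by rw [← hcde σ, h, permOf_idCode]; rfl)
    · exact absurd (congrArg Subtype.val hσ) h
  · rw [hKc, card_SL_three_two]

theorem good_std : Good (⟨permOf r2a, r_memM⟩ : ↥M24) := by
  classical
  obtain ⟨hQM, hQc, hQm, hQok, hQg⟩ := q_list
  obtain ⟨hKM, hKc, hKm, hKok, hKg⟩ := k_list
  set z : ↥M24 := ⟨permOf r2a, r_memM⟩ with hzdef
  set Q := (closure (genSet qgens)).subgroupOf M24 with hQdef
  set K := (closure (genSet kgens)).subgroupOf M24 with hKdef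
  have hQc' : Nat.card Q = 128 := by rw [Nat.card_congr (subgroupOfEquivOfLe hQM).toEquiv, hQc]
  have hKc' : Nat.card K = 168 := by rw [Nat.card_congr (subgroupOfEquivOfLe hKM).toEquiv, hKc]
  have hzQ : z ∈ Q := (hQm _).2 ⟨r2a, r_mem, rfl⟩
  have hgC : ∀ gens : List ℕ, (∀ g ∈ gens, permOK g = true) → (gens.all fun g => sqB g r2a r2a g) = true →
      closure (genSet gens) ≤ centralizer ({permOf r2a} : Set (Equiv.Perm Cfsg.GolayPt)) := by
    intro gens hok h
    rw [closure_le]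
    rintro σ ⟨g, hg, rfl⟩
    exact mem_centralizer_singleton_iff.2 ((sqB_iff (hok g hg) r_facts.1 r_facts.1 (hok g hg)).1
      (List.all_eq_true.1 h g hg))
  have hQC : Q ≤ centralizer ({z} : Set ↥M24) := fun x hx => mem_centralizer_singleton_iff.2
    (Subtype.ext (mem_centralizer_singleton_iff.1 (hgC qgens hQg basic_ok.2.2.2.2.1 hx)))
  have hKC : K ≤ centralizer ({z} : Set ↥M24) := fun x hx => mem_centralizer_singleton_iff.2
    (Subtype.ext (mem_centralizer_singleton_iff.1 (hgC kgens hKg basic_ok.2.2.2.2.2.1 hx)))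
  have hnorm : K ≤ normalizer (Q : Set ↥M24) := by
    have h1 : closure (genSet kgens) ≤ normalizer (closure (genSet qgens) : Set (Equiv.Perm Cfsg.GolayPt)) := by
      rw [closure_le]
      rintro σ ⟨k, hk, rfl⟩
      refine Subgroup.mem_normalizer_fintype ?_
      intro x hx
      have h2 : closure (genSet qgens) ≤ (closure (genSet qgens)).comap (MulAut.conj (permOf k)).toMonoidHom := by
        rw [closure_le]
        rintro τ ⟨g, hg, rfl⟩
        obtain ⟨y, hy, hyk⟩ := List.any_eq_true.1 (List.all_eq_true.1 (List.all_eq_true.1 norm_ok k hk) g hg)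
        show permOf k * permOf g * (permOf k)⁻¹ ∈ closure (genSet qgens)
        rw [← (sqB_iff (hQok y hy).1 (hKg k hk) (hKg k hk) (hQg g hg)).1 hyk, mul_inv_cancel_right]
        exact (hQm _).2 ⟨y, hy, rfl⟩
      exact h2 hx
    intro k hk
    rw [mem_normalizer_iff]
    intro x
    exact mem_normalizer_iff.1 (h1 hk) (x : Equiv.Perm Cfsg.GolayPt)
  have hdis : Q ⊓ K = ⊥ := by
    rw [eq_bot_iff]
    rintro x ⟨hxQ, hxK⟩
    obtain ⟨a, ha, ea⟩ := (hQm (x : Equiv.Perm Cfsg.GolayPt)).1 hxQ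
    obtain ⟨b, hb, eb⟩ := (hKm (x : Equiv.Perm Cfsg.GolayPt)).1 hxK
    have hab : a = b := code_eq (hQok a ha) (hKok b hb) (ea.trans eb.symm)
    have h := List.all_eq_true.1 basic_ok.2.2.2.1 b hb
    simp only [Bool.or_eq_true, beq_iff_eq, Bool.not_eq_true', List.contains_iff_mem] at h
    rcases h with h | h
    · exact mem_bot.2 (Subtype.ext (by rw [← eb, h, permOf_idCode]; rfl))
    · rw [← hab] at h
      exact absurd ha (by simpa using h)
  have hsupC : Q ⊔ K = centralizer ({z} : Set ↥M24) := by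
    refine eq_of_le_of_card_ge (sup_le hQC hKC) ?_
    refine cent_card.trans ?_
    let f : Q × K → ↥(Q ⊔ K) := fun p => ⟨p.1 * p.2, mul_mem_sup p.1.2 p.2.2⟩
    have hf : Function.Injective f := by
      rintro ⟨a, b⟩ ⟨a', b'⟩ e
      have e' : (a : ↥M24) * b = a' * b' := congrArg Subtype.val e
      have h1 : (a' : ↥M24)⁻¹ * a = b' * (b : ↥M24)⁻¹ := by
        rw [inv_mul_eq_iff_eq_mul, ← mul_assoc, ← e', mul_inv_cancel_right]
      have h2 : (a' : ↥M24)⁻¹ * a ∈ Q ⊓ K :=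
        ⟨Q.mul_mem (Q.inv_mem a'.2) a.2, h1 ▸ K.mul_mem b'.2 (K.inv_mem b.2)⟩
      rw [hdis, mem_bot, inv_mul_eq_one] at h2
      rw [← h2] at e'
      exact Prod.ext (Subtype.ext h2.symm) (Subtype.ext (mul_left_cancel e'))
    have := Nat.card_le_card_of_injective f hf
    rw [Nat.card_prod, hQc', hKc'] at this
    exact this
  have hsq : ∀ x ∈ Q, x * x = 1 ∨ x * x = z := by
    intro x hx
    obtain ⟨a, ha, ea⟩ := (hQm (x : Equiv.Perm Cfsg.GolayPt)).1 hx
    obtain ⟨hc, ec⟩ := permOf_comp (hQok a ha).1 (hQok a ha).1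
    have h := List.all_eq_true.1 square_ok a ha
    simp only [Bool.or_eq_true, beq_iff_eq] at h
    rcases h with h | h
    · left; exact Subtype.ext (by rw [coe_mul, ← ea, ← ec, h, permOf_idCode]; rfl)
    · right; exact Subtype.ext (by rw [coe_mul, ← ea, ← ec, h])
  refine ⟨Q, K, by rw [hQc']; norm_num, hzQ, hdis, hsupC, ?_,
    ⟨(subgroupOfEquivOfLe hKM).trans k_equiv.some⟩, hsq, ?_, ?_⟩
  · rw [← hsupC]; exact sup_le le_normalizer hnorm
  · intro x hx hxc
    rw [← hsupC, ← SetLike.mem_coe, coe_mul_of_right_le_normalizer_left Q K hnorm] at hx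
    obtain ⟨q, hq, k, hk, rfl⟩ := Set.mem_mul.1 hx
    obtain ⟨b, hb, eb⟩ := (hKm (k : Equiv.Perm Cfsg.GolayPt)).1 hk
    have hz1 : ∀ y ∈ Q, q⁻¹ * y * q = y ∨ q⁻¹ * y * q = y * z := by
      intro y hy
      have e : q⁻¹ * y * q = y * ((y⁻¹ * q⁻¹) * (y⁻¹ * q⁻¹) * ((q * y * q⁻¹) * (q * y * q⁻¹)) * (q * q)) := by
        group
      have hzz : z * z = 1 := Subtype.ext r_sq
      rcases hsq _ (mul_mem (inv_mem hy) (inv_mem hq)) with e1 | e1 <;>
        rcases hsq _ (mul_mem (mul_mem hq hy) (inv_mem hq)) with e2 | e2 <;>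
        rcases hsq _ hq with e3 | e3 <;> rw [e, e1, e2, e3] <;> simp [hzz]
    have h := List.all_eq_true.1 faithful_ok b hb
    simp only [Bool.or_eq_true, beq_iff_eq, List.any_eq_true, Bool.and_eq_true, Bool.not_eq_true'] at h
    rcases h with h | ⟨g, hg, h1, h2⟩
    · have hk1 : k = 1 := Subtype.ext (by rw [← eb, h, permOf_idCode]; rfl)
      subst hk1
      rw [mul_one] at hxc ⊢
      obtain ⟨a, ha, ea⟩ := (hQm (q : Equiv.Perm Cfsg.GolayPt)).1 hq
      have h := List.all_eq_true.1 center_ok a ha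
      simp only [Bool.or_eq_true, beq_iff_eq, Bool.not_eq_true'] at h
      rcases h with (h | h) | h
      · obtain ⟨g, hg, hn⟩ := List.all_eq_false.1 h
        refine absurd ((sqB_iff (hQok a ha).1 (hQg g hg) (hQg g hg) (hQok a ha).1).2 ?_) hn
        have := congrArg Subtype.val (hxc ⟨permOf g, hQM (Subgroup.subset_closure ⟨g, hg, rfl⟩)⟩ (Subgroup.subset_closure ⟨g, hg, rfl⟩))
        simpa [ea] using this
      · left; exact Subtype.ext (by rw [← ea, h, permOf_idCode]; rfl)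
      · right; exact Subtype.ext (by rw [← ea, h])
    · exfalso
      set y : ↥M24 := ⟨permOf g, hQM (Subgroup.subset_closure ⟨g, hg, rfl⟩)⟩ with hy
      have hyQ : y ∈ Q := Subgroup.subset_closure ⟨g, hg, rfl⟩
      have hxy := hxc y hyQ
      have hky : k * y = q⁻¹ * y * q * k := by
        calc k * y = q⁻¹ * (q * k * y) := by group
          _ = q⁻¹ * (y * (q * k)) := by rw [hxy]
          _ = q⁻¹ * y * q * k := by group
      obtain ⟨hgz, egz⟩ := permOf_comp (hQg g hg) r_facts.1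
      rcases hz1 y hyQ with e | e <;> rw [e] at hky
      · have := (sqB_iff (hKok b hb).1 (hQg g hg) (hQg g hg) (hKok b hb).1).2 (by
          rw [eb]; exact congrArg Subtype.val hky)
        rw [this] at h1; exact Bool.noConfusion h1
      · have := (sqB_iff (hKok b hb).1 (hQg g hg) hgz (hKok b hb).1).2 (by
          rw [eb, egz]; exact congrArg Subtype.val hky)
        rw [this] at h2; exact Bool.noConfusion h2
  · intro N hNK hKN hp
    haveI : Fact (Nat.Prime 2) := ⟨Nat.prime_two⟩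
    by_contra hne
    haveI : Finite N := inferInstance
    obtain ⟨⟨x, hx⟩, hx2⟩ := exists_prime_orderOf_dvd_card' (G := N) 2 (by
      obtain ⟨n, hn⟩ := IsPGroup.iff_card.1 hp
      rw [hn]
      refine dvd_pow_self 2 ?_
      rintro rfl
      exact hne (Subgroup.card_eq_one.1 hn))
    rw [← Subgroup.orderOf_coe] at hx2
    obtain ⟨a, ha, ea⟩ := (hKm (x : Equiv.Perm Cfsg.GolayPt)).1 (hNK hx)
    have hxx : x * x = 1 := by
      have := pow_orderOf_eq_one x
      rw [hx2] at this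
      rwa [pow_two] at this
    have h := List.all_eq_true.1 radical_ok a ha
    simp only [Bool.or_eq_true, beq_iff_eq, bne_iff_ne, List.any_eq_true, Bool.and_eq_true] at h
    rcases h with (h | h) | ⟨u, hu, ⟨⟨-, hne1⟩, h3⟩, g, hg, hug⟩
    · have : x = 1 := Subtype.ext (by rw [← ea, h, permOf_idCode]; rfl)
      subst this
      rw [orderOf_one] at hx2; omega
    · refine h (code_eq ⟨(permOf_comp (hKok a ha).1 (hKok a ha).1).1, comp_lt _ _⟩ id_facts ?_)
      rw [(permOf_comp (hKok a ha).1 (hKok a ha).1).2, ea, permOf_idCode]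
      exact congrArg Subtype.val hxx
    · set g' : ↥M24 := ⟨permOf g, hKM ((hKm _).2 ⟨g, hg, rfl⟩)⟩
      set u' : ↥M24 := ⟨permOf u, hKM ((hKm _).2 ⟨u, hu, rfl⟩)⟩
      have hu' : u' = g' * x * g'⁻¹ := by
        refine eq_mul_inv_of_mul_eq (Subtype.ext ?_)
        have := (sqB_iff (hKok u hu).1 (hKok g hg).1 (hKok g hg).1 (hKok a ha).1).1 hug
        rw [ea] at this
        exact this
      have huN : u' ∈ N := by
        rw [hu']; exact (mem_normalizer_iff.1 (hKN ((hKm _).2 ⟨g, hg, rfl⟩ : g' ∈ K)) x).1 hx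
      have hw : x * u' ∈ N := mul_mem hx huN
      obtain ⟨hc1, ec1⟩ := permOf_comp (hKok a ha).1 (hKok u hu).1
      obtain ⟨hc2, ec2⟩ := permOf_comp hc1 hc1
      obtain ⟨hc3, ec3⟩ := permOf_comp hc1 hc2
      have ev : permOf (comp a u) = ((x * u' : ↥M24) : Equiv.Perm Cfsg.GolayPt) := by
        rw [ec1, ea]; rfl
      have hw3 : (x * u') ^ 3 = 1 := by
        apply Subtype.ext
        rw [coe_pow, ← ev, pow_succ', pow_two, ← ec2, ← ec3, h3, permOf_idCode]
        rfl
      obtain ⟨k, hk⟩ := hp ⟨x * u', hw⟩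
      have hk' : (x * u') ^ (2 ^ k) = 1 := congrArg Subtype.val hk
      have h1 : orderOf (x * u') ∣ Nat.gcd 3 (2 ^ k) :=
        Nat.dvd_gcd (orderOf_dvd_of_pow_eq_one hw3) (orderOf_dvd_of_pow_eq_one hk')
      rw [Nat.Coprime.pow_right k (by norm_num : Nat.Coprime 3 2), Nat.dvd_one, orderOf_eq_one_iff] at h1
      refine hne1 (code_eq ⟨hc1, comp_lt _ _⟩ id_facts ?_)
      rw [ev, h1, permOf_idCode]
      rfl

section Final

variable (z : ↥Cfsg.M24) {o : Finset Cfsg.GolayPt}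

theorem good_of_fix (hz : orderOf z = 2)
    (hfix : (Finset.univ.filter fun p : Cfsg.GolayPt => (z : Equiv.Perm Cfsg.GolayPt) p = p) ∈ Cfsg.octads) :
    Good z := by
  have ho : orderOf (z : Equiv.Perm Cfsg.GolayPt) = 2 := by rw [Subgroup.orderOf_coe]; exact hz
  rcases two_classes z.2 ho with ⟨-, h, hh, e⟩ | ⟨h0, -⟩
  · have := good_map (MulAut.conj (⟨h, hh⟩ : ↥M24)) good_std
    rwa [show MulAut.conj (⟨h, hh⟩ : ↥M24) ⟨permOf r2a, r_memM⟩ = z from Subtype.ext e.symm] at this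
  · rw [hfix.2] at h0; omega

theorem invert_of_fixedPointFree {G : Type*} [Group G] [Finite G] {L : Subgroup G} {a : G} (ha : a * a = 1)
    (hn : ∀ l ∈ L, a * l * a ∈ L) (hf : ∀ l ∈ L, a * l = l * a → l = 1) :
    ∀ l ∈ L, a * l * a = l⁻¹ := by
  let φ : L → L := fun x => ⟨x.1⁻¹ * (a * x.1 * a), L.mul_mem (L.inv_mem x.2) (hn _ x.2)⟩
  have hinv : a⁻¹ = a := inv_eq_of_mul_eq_one_right ha
  have hφ : Function.Injective φ := by
    rintro ⟨x, hx⟩ ⟨y, hy⟩ e
    have e' : x⁻¹ * (a * x * a) = y⁻¹ * (a * y * a) := congrArg Subtype.val e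
    have h1 : y * x⁻¹ = a * (y * x⁻¹) * a := by
      calc y * x⁻¹ = y * (x⁻¹ * (a * x * a)) * (a * x * a)⁻¹ := by group
        _ = y * (y⁻¹ * (a * y * a)) * (a * x * a)⁻¹ := by rw [e']
        _ = a * (y * (a * a⁻¹) * x⁻¹) * a⁻¹ := by group
        _ = a * (y * x⁻¹) * a := by rw [mul_inv_cancel, mul_one, hinv]
    have h2 : y * x⁻¹ = 1 := hf _ (L.mul_mem hy (L.inv_mem hx)) (by
      calc a * (y * x⁻¹) = a * (y * x⁻¹) * (a * a) := by rw [ha, mul_one]
        _ = a * (y * x⁻¹) * a * a := by group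
        _ = y * x⁻¹ * a := by rw [← h1])
    exact Subtype.ext (mul_inv_eq_one.1 h2).symm
  intro l hl
  obtain ⟨⟨x, hx⟩, e⟩ := (Finite.injective_iff_surjective.1 hφ) ⟨l, hl⟩
  have e' : x⁻¹ * (a * x * a) = l := congrArg Subtype.val e
  subst e'
  calc a * (x⁻¹ * (a * x * a)) * a = a * x⁻¹ * a * x * (a * a) := by group
    _ = a⁻¹ * x⁻¹ * a⁻¹ * x := by rw [ha, mul_one, hinv]
    _ = (x⁻¹ * (a * x * a))⁻¹ := by group

theorem cent_main (hz : orderOf z = 2)
    (hfix : (Finset.univ.filter fun p : Cfsg.GolayPt => (z : Equiv.Perm Cfsg.GolayPt) p = p) ∈ Cfsg.octads)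
    (Q : Subgroup ↥Cfsg.M24)
    (hQ : Q = (Cfsg.pCore 2 ↥(centralizer ({z} : Set ↥Cfsg.M24))).map (centralizer ({z} : Set ↥Cfsg.M24)).subtype) :
    Cfsg.IsExtraspecial 2 ↥Q ∧ Nat.card ↥Q = 2 ^ 7 ∧
      (∃ E : Subgroup ↥Cfsg.M24, E ≤ Q ∧ Cfsg.IsElementaryAbelian 2 E ∧ Nat.card ↥E = 2 ^ 4) ∧
      Cfsg.IsLargeExtraspecial Q ∧
      ∃ K : Subgroup ↥Cfsg.M24, K ≤ centralizer ({z} : Set ↥Cfsg.M24) ∧ Q ⊓ K = ⊥ ∧
        Q ⊔ K = centralizer ({z} : Set ↥Cfsg.M24) ∧
        Nonempty (↥K ≃* Matrix.SpecialLinearGroup (Fin 3) (ZMod 2)) := by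
  classical
  haveI : Fact (Nat.Prime 2) := ⟨Nat.prime_two⟩
  obtain ⟨Q₀, K, hc, hzQ, hdis, hsup, hn, hψ, hsq, hcen, hrad⟩ := good_of_fix z hz hfix
  set C := centralizer ({z} : Set ↥Cfsg.M24) with hC
  have hzz : z * z = 1 := by rw [← pow_two, ← hz]; exact pow_orderOf_eq_one z
  have hQ₀C : Q₀ ≤ C := hsup ▸ le_sup_left
  have hKC : K ≤ C := hsup ▸ le_sup_right
  have hQ₀p : IsPGroup 2 Q₀ := IsPGroup.of_card hc
  -- normal 2-subgroups of `C`
  have hcore : ∀ N : Subgroup ↥Cfsg.M24, N ≤ C → C ≤ normalizer (N : Set ↥Cfsg.M24) → IsPGroup 2 N → N ≤ Q := by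
    intro N hN hCN hp x hx
    rw [hQ]
    refine ⟨⟨x, hN hx⟩, Core.le_pCore ((normal_subgroupOf_iff_le_normalizer hN).2 hCN)
      (hp.of_equiv (subgroupOfEquivOfLe hN).symm) hx, rfl⟩
  have hQC : Q ≤ C := by
    rw [hQ]; rintro _ ⟨y, -, rfl⟩; exact y.2
  have hQp : IsPGroup 2 Q := by
    rw [hQ]; exact (Core.isPGroup_pCore 2 C).map _
  have hCQ : C ≤ normalizer (Q : Set ↥Cfsg.M24) := by
    intro c hc'
    refine mem_normalizer_fintype fun x hx => ?_
    rw [hQ] at hx ⊢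
    obtain ⟨y, hy, rfl⟩ := hx
    haveI : (Cfsg.pCore 2 C).Normal := inferInstance
    exact ⟨⟨c, hc'⟩ * y * ⟨c, hc'⟩⁻¹, ‹(Cfsg.pCore 2 C).Normal›.conj_mem y hy _, rfl⟩
  have hQeq : Q = Q₀ := by
    refine le_antisymm (fun x hx => ?_) (hcore Q₀ hQ₀C hn hQ₀p)
    have hQK : Q ⊓ K = ⊥ := by
      refine hrad _ inf_le_right ?_ (hQp.to_le inf_le_left)
      intro k hk
      refine mem_normalizer_fintype fun y hy => ⟨?_, ?_⟩
      · exact (mem_normalizer_iff.1 (hCQ (hKC hk)) y).1 hy.1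
      · exact K.mul_mem (K.mul_mem hk hy.2) (K.inv_mem hk)
    have hxC : x ∈ ((Q₀ ⊔ K : Subgroup ↥Cfsg.M24) : Set ↥Cfsg.M24) := by rw [hsup]; exact hQC hx
    rw [coe_mul_of_right_le_normalizer_left Q₀ K (hKC.trans hn)] at hxC
    obtain ⟨q, hq, k, hk, rfl⟩ := Set.mem_mul.1 hxC
    have : k ∈ Q ⊓ K := ⟨by
      simpa using Q.mul_mem (Q.inv_mem (hcore Q₀ hQ₀C hn hQ₀p hq)) hx, hk⟩
    rw [hQK, mem_bot] at this
    simpa [this] using hq
  subst Q₀
  -- the fixed octad
  set o := Finset.univ.filter fun p : Cfsg.GolayPt => (z : Equiv.Perm Cfsg.GolayPt) p = p with hodef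
  set E := (M24 ⊓ fixingSubgroup (Equiv.Perm Cfsg.GolayPt) (↑o : Set Cfsg.GolayPt)).subgroupOf M24 with hE
  have hE16 : Nat.card E = 2 ^ 4 := by
    rw [Nat.card_congr (subgroupOfEquivOfLe (inf_le_left :
      M24 ⊓ fixingSubgroup (Equiv.Perm Cfsg.GolayPt) (↑o : Set Cfsg.GolayPt) ≤ M24)).toEquiv, fixer_card hfix]
    norm_num
  have hEsq : ∀ a ∈ E, a * a = 1 := fun a ha => Subtype.ext (fixer_sq hfix ha)
  have hzE : z ∈ E := mem_fixer_iff.2 ⟨z.2, fun p hp => (Finset.mem_filter.1 hp).2⟩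
  have hEcomm : ∀ a ∈ E, ∀ b ∈ E, a * b = b * a := fun a ha b hb => by
    calc a * b = (a * b)⁻¹ := (inv_eq_of_mul_eq_one_right (hEsq _ (mul_mem ha hb))).symm
      _ = b⁻¹ * a⁻¹ := mul_inv_rev a b
      _ = b * a := by rw [inv_eq_of_mul_eq_one_right (hEsq a ha), inv_eq_of_mul_eq_one_right (hEsq b hb)]
  have hEC : E ≤ C := fun a ha => mem_centralizer_singleton_iff.2 (hEcomm a ha z hzE)
  -- centralisers of elements of `E` normalise `E`
  have hEn : ∀ a ∈ E, a ≠ 1 → centralizer ({a} : Set ↥Cfsg.M24) ≤ normalizer (E : Set ↥Cfsg.M24) := by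
    intro a ha ha1 c hca
    have hfa : ∀ p, (a : Equiv.Perm Cfsg.GolayPt) p = p ↔ p ∈ o := fun p =>
      ⟨fun hp => by_contra fun hpo => ha1 (Subtype.ext (fixer_free hfix ha hpo hp)),
        fun hp => (mem_fixer_iff.1 ha).2 p hp⟩
    have hstab : ∀ p, p ∈ o → (c : Equiv.Perm Cfsg.GolayPt) p ∈ o := by
      intro p hp
      rw [← hfa]
      have h := congrArg (fun x : ↥M24 => (x : Equiv.Perm Cfsg.GolayPt) p) (mem_centralizer_singleton_iff.1 hca)
      simp only [coe_mul, Equiv.Perm.mul_apply] at h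
      rw [(hfa p).2 hp] at h
      exact h.symm
    have hco : (c : Equiv.Perm Cfsg.GolayPt) • o = o := by
      refine Finset.eq_of_subset_of_card_le (fun q hq => ?_) (by rw [Finset.card_smul_finset])
      obtain ⟨p, hp, rfl⟩ := Finset.mem_smul_finset.1 hq
      exact hstab p hp
    refine mem_normalizer_fintype fun x hx => ?_
    have := (fixer_conj c.2 o (x : Equiv.Perm Cfsg.GolayPt)).2 hx
    rw [hco] at this
    exact mem_subgroupOf.2 this
  have hz1 : z ≠ 1 := fun h => by rw [h, orderOf_one] at hz; omega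
  have hEQ : E ≤ Q := hcore E hEC (hEn z hzE hz1) (IsPGroup.of_card hE16)
  have hEA : Cfsg.IsElementaryAbelian 2 E :=
    ⟨Eight.commutative_of hEcomm, fun a ha => by rw [pow_two]; exact hEsq a ha⟩
  -- the centre
  have hzc : ∀ y ∈ Q, z * y = y * z := fun y hy => (mem_centralizer_singleton_iff.1 (hQC hy)).symm
  have hcenter : (center Q : Set Q) = {1, ⟨z, hzQ⟩} := by
    ext x
    constructor
    · intro hx
      rcases hcen x (hQC x.2) (fun y hy => (congrArg Subtype.val (mem_center_iff.1 hx ⟨y, hy⟩)).symm) with h | h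
      · exact Or.inl (Subtype.ext h)
      · exact Or.inr (Subtype.ext h)
    · rintro (rfl | rfl)
      · exact one_mem _
      · exact mem_center_iff.2 fun y => Subtype.ext (hzc y y.2).symm
  have hcc : Nat.card (center Q) = 2 := by
    rw [show Nat.card (center Q) = (center Q : Set Q).ncard from Nat.card_coe_set_eq _, hcenter,
      Set.ncard_pair fun h => hz1 (congrArg Subtype.val h).symm]
  have hsqc : ∀ a : Q, a ^ 2 ∈ center Q := fun a => by
    rw [← SetLike.mem_coe, hcenter, pow_two]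
    rcases hsq a a.2 with h | h
    · exact Or.inl (Subtype.ext h)
    · exact Or.inr (Subtype.ext h)
  have hcomm : commutator Q ≤ center Q := by
    rw [_root_.commutator_def, commutator_le]
    intro a _ b _
    have e : ⁅a, b⁆ = (a * b) * (a * b) * ((b⁻¹ * a⁻¹ * b) * (b⁻¹ * a⁻¹ * b)) * (b⁻¹ * b⁻¹) := by
      rw [commutatorElement_def]; group
    rw [e]
    simp only [← pow_two]
    exact mul_mem (mul_mem (hsqc _) (hsqc _)) (hsqc _)
  have hne : center Q ≠ ⊤ := fun h => by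
    rw [h, card_top, hc] at hcc; norm_num at hcc
  have hcommeq : commutator Q = center Q := by
    refine eq_of_le_of_card_ge hcomm ?_
    rw [hcc]
    by_contra hlt
    have h0 : 0 < Nat.card (commutator Q) := Nat.card_pos
    have h1 : commutator Q = ⊥ := Subgroup.card_eq_one.1 (by omega)
    refine hne (eq_top_iff.2 fun a _ => mem_center_iff.2 fun b => ?_)
    have h2 : ⁅b, a⁆ ∈ commutator Q := by
      rw [_root_.commutator_def]; exact commutator_mem_commutator (mem_top b) (mem_top a)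
    rw [h1, mem_bot, commutatorElement_eq_one_iff_mul_comm] at h2
    exact h2
  have hfr : frattini Q = center Q := by
    refine le_antisymm (FGS3.frattini_le_of_elementary (p := 2) hcomm hsqc) ?_
    rw [← hcommeq, FGS3.frattini_eq_sup hQp]
    exact le_sup_left
  have hextra : Cfsg.IsExtraspecial 2 ↥Q := ⟨⟨hQp, hfr, hcommeq⟩, hcc⟩
  have hmap : ((center Q).map Q.subtype : Set ↥Cfsg.M24) = {1, z} := by
    rw [coe_map, hcenter, Set.image_pair]; rfl
  have hcentQ : centralizer (Q : Set ↥Cfsg.M24) = (center Q).map Q.subtype := by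
    refine SetLike.coe_injective ?_
    rw [hmap]
    ext x
    constructor
    · intro hx
      exact hcen x (mem_centralizer_singleton_iff.2 (mem_centralizer_iff.1 hx z hzQ).symm)
        fun y hy => (mem_centralizer_iff.1 hx y hy).symm
    · rintro (rfl | rfl)
      · exact one_mem _
      · exact mem_centralizer_iff.2 fun y hy => (hzc y hy).symm
  have hcentZ : centralizer (((center Q).map Q.subtype : Subgroup ↥Cfsg.M24) : Set ↥Cfsg.M24) = C := by
    rw [hmap]
    ext x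
    rw [hC, mem_centralizer_iff, mem_centralizer_singleton_iff]
    constructor
    · intro h; exact (h z (Or.inr rfl)).symm
    · rintro h y (rfl | rfl)
      · simp
      · exact h.symm
  refine ⟨hextra, hc, ⟨E, hEQ, hEA, hE16⟩, ⟨hextra, hcentQ, hcentZ ▸ hn, ?_⟩, K, hKC, hdis, hsup, hψ⟩
  -- no odd subgroup is normalised by `Q`
  intro L hodd hQL
  have hdisj : ∀ S : Subgroup ↥Cfsg.M24, IsPGroup 2 S → ∀ x ∈ L, x ∈ S → x = 1 := by
    intro S hS x hxL hxS
    obtain ⟨k, hk⟩ := hS ⟨x, hxS⟩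
    have h1 : x ^ (2 ^ k) = 1 := congrArg Subtype.val hk
    have h2 : orderOf x ∣ Nat.gcd (2 ^ k) (Nat.card L) :=
      Nat.dvd_gcd (orderOf_dvd_of_pow_eq_one h1) (Subgroup.orderOf_dvd_natCard L hxL)
    rw [Nat.Coprime.pow_left k (Nat.coprime_two_left.2 hodd), Nat.dvd_one, orderOf_eq_one_iff] at h2
    exact h2
  have hnq : ∀ q ∈ Q, ∀ l ∈ L, q * l * q⁻¹ ∈ L := fun q hq l hl => (mem_normalizer_iff.1 (hQL hq) l).1 hl
  have step1 : ∀ l ∈ L, l * z = z * l → l = 1 := by
    intro l hl hlz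
    have hlC : l ∈ C := mem_centralizer_singleton_iff.2 hlz
    have hcom : ∀ q ∈ Q, l * q = q * l := by
      intro q hq
      have h1 : l * q * l⁻¹ * q⁻¹ ∈ Q := mul_mem ((mem_normalizer_iff.1 (hCQ hlC) q).1 hq) (inv_mem hq)
      have h2 : l * q * l⁻¹ * q⁻¹ ∈ L := by
        rw [show l * q * l⁻¹ * q⁻¹ = l * (q * l⁻¹ * q⁻¹) by group]
        exact mul_mem hl (hnq q hq _ (inv_mem hl))
      have h3 := hdisj Q hQp _ h2 h1
      rw [mul_inv_eq_one, mul_inv_eq_iff_eq_mul] at h3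
      exact h3
    rcases hcen l hlC hcom with h | h
    · exact h
    · exact hdisj Q hQp l hl (h ▸ hzQ)
  have step2 : ∀ a ∈ E, a ≠ 1 → ∀ l ∈ L, a * l = l * a → l = 1 := by
    intro a ha ha1 l hl hla
    refine step1 l hl ?_
    have hln : l ∈ normalizer (E : Set ↥Cfsg.M24) := hEn a ha ha1 (mem_centralizer_singleton_iff.2 hla.symm)
    have h1 : l * z * l⁻¹ * z⁻¹ ∈ E := mul_mem ((mem_normalizer_iff.1 hln z).1 hzE) (inv_mem hzE)
    have h2 : l * z * l⁻¹ * z⁻¹ ∈ L := by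
      rw [show l * z * l⁻¹ * z⁻¹ = l * (z * l⁻¹ * z⁻¹) by group]
      exact mul_mem hl (hnq z hzQ _ (inv_mem hl))
    have h3 := hdisj E (IsPGroup.of_card hE16) _ h2 h1
    rw [mul_inv_eq_one, mul_inv_eq_iff_eq_mul] at h3
    exact h3
  obtain ⟨a, ha, ha1, haz⟩ : ∃ a ∈ E, a ≠ 1 ∧ a ≠ z := by
    by_contra h
    push Not at h
    have hsub : (E : Set ↥Cfsg.M24) ⊆ {1, z} := fun a ha => by
      by_cases h1 : a = 1
      · exact Or.inl h1
      · exact Or.inr (h a ha h1)
    have h2 := (Set.ncard_le_ncard hsub).trans_eq (Set.ncard_pair (Ne.symm hz1))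
    rw [← Nat.card_coe_set_eq] at h2
    change Nat.card E ≤ 2 at h2
    rw [hE16] at h2; norm_num at h2
  have hinv : ∀ b ∈ E, b ≠ 1 → ∀ l ∈ L, b * l * b = l⁻¹ := fun b hb hb1 =>
    invert_of_fixedPointFree (hEsq b hb)
      (fun l hl => by
        have := hnq b (hEQ hb) l hl
        rwa [inv_eq_of_mul_eq_one_right (hEsq b hb)] at this)
      (step2 b hb hb1)
  rw [eq_bot_iff]
  intro l hl
  have h1 := hinv a ha ha1 l hl
  have h2 := hinv z hzE hz1 l hl
  have h3 := hinv (a * z) (mul_mem ha hzE) (fun h => haz (by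
    rw [← inv_eq_of_mul_eq_one_right h, inv_eq_of_mul_eq_one_right (hEsq a ha)])) l hl
  have h4 : a * z * l * (a * z) = l := by
    calc a * z * l * (a * z) = a * (z * l * z) * a := by
          rw [show a * z = z * a from hEcomm a ha z hzE]
          rw [show z * a * l * (z * a) = z * a * l * (z * a) from rfl]
          rw [← hEcomm a ha z hzE]
          nth_rewrite 2 [hEcomm a ha z hzE]
          group
      _ = a * l⁻¹ * a := by rw [h2]
      _ = (a⁻¹ * l * a⁻¹)⁻¹ := by group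
      _ = l := by rw [inv_eq_of_mul_eq_one_right (hEsq a ha), h1, inv_inv]
  rw [h4] at h3
  have h5 : l * l = 1 := by nth_rewrite 1 [h3]; exact inv_mul_cancel l
  refine mem_bot.2 (hdisj (zpowers l) ?_ l hl (mem_zpowers l))
  refine fun ⟨y, hy⟩ => ⟨1, Subtype.ext ?_⟩
  obtain ⟨n, rfl⟩ := mem_zpowers_iff.1 hy
  show (l ^ n) ^ (2 ^ 1) = 1
  rw [pow_one, ← zpow_natCast, ← zpow_mul, mul_comm, zpow_mul, zpow_natCast, pow_two, h5, one_zpow]

end Final

end Cfsg.Agent.Components.MFourCent
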