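import Cfsg.Agent.M24Orbits.Perms2
import Cfsg.Agent.M24Orbits.Data3
import Cfsg.Agent.Components.MFourCentData
import Mathlib.LinearAlgebra.Matrix.SpecialLinearGroup

/-! Kernel checks for the centraliser `2^(1+6):L3(2)` in `M24`. -/

set_option autoImplicit false
set_option maxRecDepth 20000

namespace Cfsg.Agent.Components.MFourCent

open Cfsg.Agent.Golay Cfsg.Agent.M24Orbits

/-- The radical. -/
def qelts : List ℕ := collectP qgens qtree idCode [idCode]

/-- The complement. -/
def kelts : List ℕ := collectP kgens ktree idCode [idCode]

/-- The bit pattern attached to a code. -/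
def lk (x : ℕ) : ℕ := ((ktab.find? fun p => p.1 == x).getD (0, 0)).2

/-- The matrix of a bit pattern. -/
def matOf (n : ℕ) : Matrix (Fin 3) (Fin 3) (ZMod 2) :=
  Matrix.of fun i j => if n.testBit (3 * i.val + j.val) then 1 else 0

theorem qgroup_ok : groupOK qgens qtree 128 = true := by decide +kernel

theorem kgroup_ok : groupOK kgens ktree 168 = true := by decide +kernel

theorem basic_ok : qgens.all (fun g => qelts.contains (comp idCode g)) = true ∧
    kgens.all (fun g => kelts.contains (comp idCode g)) = true ∧ qelts.contains r2a = true ∧
    (kelts.all fun x => x == idCode || !(qelts.contains x)) = true ∧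
    (qgens.all fun g => sqB g r2a r2a g) = true ∧ (kgens.all fun g => sqB g r2a r2a g) = true ∧
    (r2a != idCode) = true := by
  decide +kernel

theorem norm_ok : (kgens.all fun k => qgens.all fun q => qelts.any fun y => sqB y k k q) = true := by
  decide +kernel

theorem center_ok : (qelts.all fun x => !(qgens.all fun g => sqB x g g x) || x == idCode || x == r2a) = true := by
  decide +kernel

theorem square_ok : (qelts.all fun x => comp x x == idCode || comp x x == r2a) = true := by decide +kernel

theorem faithful_ok : (kelts.all fun k => k == idCode ||
    qgens.any fun g => !(sqB k g g k) && !(sqB k g (comp g r2a) k)) = true := by decide +kernel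

theorem radical_ok : (kelts.all fun x => x == idCode || comp x x != idCode || kelts.any fun u =>
    comp u u == idCode && comp x u != idCode && comp (comp x u) (comp (comp x u) (comp x u)) == idCode &&
      kelts.any fun g => sqB u g g x) = true := by decide +kernel

theorem hom_ok : (kelts.all fun x => kgens.all fun g =>
    decide (matOf (lk (comp x g)) = matOf (lk x) * matOf (lk g))) = true := by decide +kernel

theorem det_ok : (kelts.all fun x => decide ((matOf (lk x)).det = 1)) = true := by decide +kernel

theorem inj_ok : matOf (lk idCode) = 1 ∧
    (kelts.all fun x => x == idCode || decide (matOf (lk x) ≠ 1)) = true := by decide +kernel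

end Cfsg.Agent.Components.MFourCent
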