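import Cfsg.Prelude
import Cfsg.Agent.Components.RankTwoGraph
import Cfsg.Agent.OddLocal.RankTwo.Narrow
import Cfsg.Agent.Transfer.PGroupNormal

/-! Elementary abelian subgroups of rank four in `p`-groups, `p` odd. -/

set_option autoImplicit false

open Subgroup

namespace Cfsg.Agent.Components.RankFour

variable {P : Type*} [Group P] [Finite P] {p : ℕ} [hp : Fact p.Prime]

/-- The commutator of any element with an element of a normal section of order `p` lies in the
lower term. -/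
theorem comm_mem_of_card (hP : IsPGroup p P) {N M : Subgroup P} [hN : N.Normal] [hM : M.Normal]
    (hle : N ≤ M) (hc : Nat.card ↥M = p * Nat.card ↥N) (g : P) {m : P} (hm : m ∈ M) :
    g * m * g⁻¹ * m⁻¹ ∈ N := by
  have hle' := hle
  let π := QuotientGroup.mk' N
  haveI hMn : (M.map π).Normal := hM.map π (QuotientGroup.mk'_surjective N)
  haveI := (hP.to_quotient N).isNilpotent
  have hcard : Nat.card ↥(M.map π) = p := by
    have h1 := Subgroup.relIndex_ker M π
    rw [QuotientGroup.ker_mk'] at h1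
    rw [← h1]
    refine Nat.eq_of_mul_eq_mul_left (Nat.card_pos (α := ↥N)) ?_
    rw [card_mul_relIndex' hle, hc, mul_comm]
  obtain ⟨z, hz, hz1, hzc⟩ := OddLocal.exists_ne_one_mem_center_of_normal (M.map π) (fun h => by
    rw [h, Subgroup.card_bot] at hcard
    exact hp.out.one_lt.ne hcard)
  have heq : zpowers z = M.map π := by
    refine Subgroup.eq_of_le_of_card_ge (zpowers_le.mpr hz) ?_
    rw [hcard, Nat.card_zpowers]
    have hd : orderOf z ∣ p := hcard ▸ Subgroup.orderOf_dvd_natCard _ hz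
    rcases (Nat.dvd_prime hp.out).mp hd with h | h
    · exact absurd (orderOf_eq_one_iff.mp h) hz1
    · exact h.ge
  have hcen : π m ∈ center (P ⧸ N) := zpowers_le.mpr hzc (heq.ge ⟨m, hm, rfl⟩)
  refine (QuotientGroup.eq_one_iff _).mp ?_
  show π (g * m * g⁻¹ * m⁻¹) = 1
  rw [map_mul, map_mul, map_mul, map_inv, map_inv, mem_center_iff.mp hcen, mul_inv_cancel_right,
    mul_inv_cancel]

omit [Finite P] hp in
theorem mul_pow_central {x y : P} (hx : Commute x (y * x * y⁻¹ * x⁻¹))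
    (hy : Commute y (y * x * y⁻¹ * x⁻¹)) (n : ℕ) :
    (x * y) ^ n = x ^ n * y ^ n * (y * x * y⁻¹ * x⁻¹) ^ (n * (n - 1) / 2) := by
  set c := y * x * y⁻¹ * x⁻¹ with hc
  have hyx : y * x = x * y * c := by
    rw [mul_assoc x y c, hy.eq, ← mul_assoc, hx.eq, hc]
    group
  have hpow : ∀ k : ℕ, y ^ k * x = x * y ^ k * c ^ k := by
    intro k
    induction k with
    | zero => simp
    | succ k ih =>
      calc y ^ (k + 1) * x = y * (y ^ k * x) := by rw [pow_succ', mul_assoc]
        _ = (y * x) * y ^ k * c ^ k := by rw [ih]; group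
        _ = x * y * (c * y ^ k) * c ^ k := by rw [hyx]; group
        _ = x * y * (y ^ k * c) * c ^ k := by rw [(hy.pow_left k).eq.symm]
        _ = x * y ^ (k + 1) * c ^ (k + 1) := by rw [pow_succ' y, pow_succ' c]; group
  induction n with
  | zero => simp
  | succ n ih =>
    have htri : (n + 1) * (n + 1 - 1) / 2 = n * (n - 1) / 2 + n := by
      rw [Nat.add_sub_cancel]
      rcases n with _ | k
      · rfl
      · rw [Nat.add_sub_cancel, show (k + 1 + 1) * (k + 1) = (k + 1) * k + (k + 1) * 2 by ring,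
          Nat.add_mul_div_right _ _ two_pos]
    set m := n * (n - 1) / 2
    calc (x * y) ^ (n + 1) = x ^ n * y ^ n * (c ^ m * x) * y := by rw [pow_succ, ih]; group
      _ = x ^ n * y ^ n * (x * c ^ m) * y := by rw [(hx.pow_right m).eq.symm]
      _ = x ^ n * (y ^ n * x) * c ^ m * y := by group
      _ = x ^ n * (x * y ^ n * c ^ n) * c ^ m * y := by rw [hpow]
      _ = x ^ (n + 1) * (y ^ n * (c ^ (n + m) * y)) := by rw [pow_succ, pow_add]; group
      _ = x ^ (n + 1) * (y ^ n * (y * c ^ (n + m))) := by rw [(hy.pow_right (n + m)).eq.symm]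
      _ = x ^ (n + 1) * y ^ (n + 1) * c ^ ((n + 1) * (n + 1 - 1) / 2) := by
        rw [htri, pow_succ y n, add_comm m n]; group

/-- A subgroup generated by elements of order `p` with central commutators of order `p` has
exponent `p`, for odd `p`. -/
theorem pow_eq_one_of_closure (hp2 : p ≠ 2) {S : Set P} {Z : Subgroup P}
    (hS : ∀ s ∈ S, s ^ p = 1) (hZp : ∀ z ∈ Z, z ^ p = 1) (hZc : Z ≤ centralizer S)
    (hcomm : ∀ s ∈ S, ∀ t ∈ S, s * t * s⁻¹ * t⁻¹ ∈ Z) :
    ∀ h ∈ Subgroup.closure S, h ^ p = 1 := by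
  have hZH : ∀ z ∈ Z, ∀ a ∈ Subgroup.closure S, Commute a z := by
    intro z hz a ha
    have hle : Subgroup.closure S ≤ centralizer ({z} : Set P) :=
      (Subgroup.closure_le _).mpr fun s hs => mem_centralizer_singleton_iff.mpr
        (mem_centralizer_iff.mp (hZc hz) s hs)
    exact mem_centralizer_singleton_iff.mp (hle ha)
  have hc1 : ∀ t ∈ S, ∀ a ∈ Subgroup.closure S, a * t * a⁻¹ * t⁻¹ ∈ Z := by
    intro t ht a ha
    induction ha using Subgroup.closure_induction with
    | mem a ha => exact hcomm a ha t ht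
    | one => simp
    | mul a b ha hb h1 h2 =>
      rw [show a * b * t * (a * b)⁻¹ * t⁻¹ = a * (b * t * b⁻¹ * t⁻¹) * a⁻¹ * (a * t * a⁻¹ * t⁻¹)
        by group, (hZH _ h2 a ha).eq, mul_inv_cancel_right]
      exact mul_mem h2 h1
    | inv a ha h1 =>
      rw [show a⁻¹ * t * a⁻¹⁻¹ * t⁻¹ = a⁻¹ * (a * t * a⁻¹ * t⁻¹)⁻¹ * a by group,
        (hZH _ (inv_mem h1) a⁻¹ (inv_mem ha)).eq, inv_mul_cancel_right]
      exact inv_mem h1
  have hc2 : ∀ a ∈ Subgroup.closure S, ∀ b ∈ Subgroup.closure S, a * b * a⁻¹ * b⁻¹ ∈ Z := by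
    intro a ha b hb
    induction hb using Subgroup.closure_induction with
    | mem b hb => exact hc1 b hb a ha
    | one => simp
    | mul b c hb hc h1 h2 =>
      rw [show a * (b * c) * a⁻¹ * (b * c)⁻¹ =
        (a * b * a⁻¹ * b⁻¹) * (b * (a * c * a⁻¹ * c⁻¹) * b⁻¹) by group,
        (hZH _ h2 b hb).eq, mul_inv_cancel_right]
      exact mul_mem h1 h2
    | inv b hb h1 =>
      rw [show a * b⁻¹ * a⁻¹ * b⁻¹⁻¹ = b⁻¹ * (a * b * a⁻¹ * b⁻¹)⁻¹ * b by group,
        (hZH _ (inv_mem h1) b⁻¹ (inv_mem hb)).eq, inv_mul_cancel_right]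
      exact inv_mem h1
  intro h hh
  induction hh using Subgroup.closure_induction with
  | mem s hs => exact hS s hs
  | one => simp
  | mul a b ha hb h1 h2 =>
    have hz := hc2 b hb a ha
    rw [mul_pow_central (hZH _ hz a ha) (hZH _ hz b hb), h1, h2, one_mul, one_mul]
    obtain ⟨j, hj⟩ : p ∣ p * (p - 1) / 2 := by
      obtain ⟨k, hk⟩ := hp.out.odd_of_ne_two hp2
      refine ⟨k, ?_⟩
      rw [show p - 1 = 2 * k by omega, show p * (2 * k) = (p * k) * 2 by ring,
        Nat.mul_div_cancel _ two_pos]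
    rw [hj, pow_mul, hZp _ hz, one_pow]
  | inv a _ h1 => rw [inv_pow, h1, inv_one]

/-- The fundamental configuration: a maximal normal elementary abelian subgroup of order `p ^ 3`
with a normal subgroup of order `p ^ 2` inside. -/
structure Flag (A A₂ : Subgroup P) (p : ℕ) : Prop where
  normal : A.Normal
  normal₂ : A₂.Normal
  le : A₂ ≤ A
  ea : Cfsg.IsElementaryAbelian p A
  card : Nat.card ↥A = p ^ 3
  card₂ : Nat.card ↥A₂ = p ^ 2
  alperin : ∀ x ∈ centralizer (A : Set P), x ^ p = 1 → x ∈ A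

variable {A A₂ : Subgroup P}

omit [Finite P] hp in
theorem exists_ne_one_of_ne_bot {H : Subgroup P} (h : H ≠ ⊥) : ∃ a ∈ H, a ≠ 1 := by
  by_contra! hc
  exact h (eq_bot_iff.mpr fun a ha => mem_bot.mpr (hc a ha))

omit [Finite P] hp in
theorem cube_identity {M : Type*} [CommGroup M] (v b d : M) :
    v * d⁻¹ * (d * b⁻¹)⁻¹ * (d * b⁻¹ * (b * v⁻¹)⁻¹)⁻¹ = (d⁻¹) ^ 3 * b ^ 3 := by
  simp only [mul_inv_rev, inv_inv, pow_succ, pow_zero, one_mul]
  simp [mul_comm, mul_left_comm, mul_assoc]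
  rw [mul_left_comm v b, mul_left_comm v b, mul_left_comm v b, mul_inv_cancel_left]

theorem eq_sup_zpowers {S T : Subgroup P} (hT : Cfsg.IsElementaryAbelian p T) (hle : S ≤ T)
    (hc : Nat.card ↥T = p * Nat.card ↥S) {a : P} (ha : a ∈ T) (haS : a ∉ S) :
    T = S ⊔ zpowers a := by
  refine (Subgroup.eq_of_le_of_card_ge (sup_le hle (zpowers_le.mpr ha)) ?_).symm
  rw [ea_card_sup_zpowers hT hle ha haS, hc, mul_comm]

theorem conj_eq_of_commute {x a : P} {S : Subgroup P} (h1 : ∀ s ∈ S, Commute x s)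
    (h2 : Commute x a) : ∀ t ∈ S ⊔ zpowers a, Commute x t := by
  have hle : S ⊔ zpowers a ≤ centralizer ({x} : Set P) :=
    sup_le (fun s hs => mem_centralizer_singleton_iff.mpr (h1 s hs).eq.symm)
      (zpowers_le.mpr (mem_centralizer_singleton_iff.mpr h2.eq.symm))
  exact fun t ht => (mem_centralizer_singleton_iff.mp (hle ht) : t * x = x * t).symm

/-- In a flag, every elementary abelian subgroup of order `p ^ 4` meets `A` in `A₂`. -/
theorem Flag.inf_eq (hfl : Flag A A₂ p) (hP : IsPGroup p P) {F : Subgroup P}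
    (hF : Cfsg.IsElementaryAbelian p F) (hFc : Nat.card ↥F = p ^ 4) : F ⊓ A = A₂ := by
  haveI := hfl.normal
  haveI := hfl.normal₂
  obtain ⟨Z, hZn, hZ2, hZc⟩ := Cfsg.Agent.Transfer.PNormal.exists_normal_card hP hfl.normal₂ 1
    (by rw [hfl.card₂]; exact Nat.pow_le_pow_right hp.out.pos (by norm_num))
  haveI := hZn
  rw [pow_one] at hZc
  have hZcen : ∀ z ∈ Z, ∀ g : P, Commute g z := by
    intro z hz g
    have h := comm_mem_of_card (N := ⊥) (M := Z) hP bot_le (by rw [hZc, Subgroup.card_bot, mul_one]) g hz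
    rw [mem_bot, mul_inv_eq_one, mul_inv_eq_iff_eq_mul] at h
    exact h
  have hA2e : Cfsg.IsElementaryAbelian p A₂ := PLocal.isEA_mono hfl.ea hfl.le
  have hcA2 : Nat.card ↥A₂ = p * Nat.card ↥Z := by rw [hfl.card₂, hZc, sq]
  have hcA : Nat.card ↥A = p * Nat.card ↥A₂ := by rw [hfl.card, hfl.card₂]; ring
  obtain ⟨a2, ha2, ha2Z⟩ : ∃ a ∈ A₂, a ∉ Z := by
    by_contra! h
    have := Subgroup.card_le_of_le h
    rw [hcA2, hZc] at this
    exact absurd this (not_le.mpr (lt_mul_of_one_lt_left hp.out.pos hp.out.one_lt))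
  obtain ⟨a3, ha3, ha3A⟩ : ∃ a ∈ A, a ∉ A₂ := by
    by_contra! h
    have := Subgroup.card_le_of_le h
    rw [hfl.card, hfl.card₂] at this
    exact absurd this (not_le.mpr (Nat.pow_lt_pow_right hp.out.one_lt (by norm_num)))
  have hA2eq := eq_sup_zpowers hA2e hZ2 hcA2 ha2 ha2Z
  have hAeq := eq_sup_zpowers hfl.ea hfl.le hcA ha3 ha3A
  set D := F ⊓ A with hD
  have hker : ∀ e ∈ F, Commute e a2 → Commute e a3 → e ∈ D := by
    intro e he h2 h3
    have hA2c : ∀ s ∈ A₂, Commute e s := fun s hs =>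
      conj_eq_of_commute (fun z hz => hZcen z hz e) h2 s (hA2eq ▸ hs)
    refine ⟨he, hfl.alperin e ?_ (hF.2 e he)⟩
    rw [mem_centralizer_iff]
    exact fun t ht => (conj_eq_of_commute hA2c h3 t (hAeq ▸ ht)).eq.symm
  let f : ↥F → ↥A₂ × ↥Z := fun e =>
    (⟨(e : P) * a3 * (e : P)⁻¹ * a3⁻¹, comm_mem_of_card hP hfl.le hcA _ ha3⟩,
     ⟨(e : P) * a2 * (e : P)⁻¹ * a2⁻¹, comm_mem_of_card hP hZ2 hcA2 _ ha2⟩)
  -- the fibres of `f` lie in cosets of `D`
  have hfib : ∀ e e' : ↥F, f e = f e' → (e : P)⁻¹ * e' ∈ D := by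
    intro e e' h
    have h3 : (e : P) * a3 * (e : P)⁻¹ = e' * a3 * (e' : P)⁻¹ :=
      mul_right_cancel (congrArg (fun w => ((w.1 : ↥A₂) : P)) h)
    have h2 : (e : P) * a2 * (e : P)⁻¹ = e' * a2 * (e' : P)⁻¹ :=
      mul_right_cancel (congrArg (fun w => ((w.2 : ↥Z) : P)) h)
    have key : ∀ a : P, (e : P) * a * (e : P)⁻¹ = e' * a * (e' : P)⁻¹ →
        Commute ((e : P)⁻¹ * e') a := by
      intro a ha
      show (e : P)⁻¹ * e' * a = a * ((e : P)⁻¹ * e')
      calc (e : P)⁻¹ * e' * a = (e : P)⁻¹ * (e' * a * (e' : P)⁻¹) * e' := by group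
        _ = (e : P)⁻¹ * (e * a * (e : P)⁻¹) * e' := by rw [ha]
        _ = a * ((e : P)⁻¹ * e') := by group
    exact hker _ (mul_mem (inv_mem e.2) e'.2) (key _ h2) (key _ h3)
  have hq : Nat.card (↥F ⧸ D.subgroupOf F) ≤ p ^ 3 := by
    have hinj : Function.Injective fun q : ↥F ⧸ D.subgroupOf F => f q.out := by
      intro a b h
      rw [← QuotientGroup.out_eq' a, ← QuotientGroup.out_eq' b, QuotientGroup.eq]
      exact hfib _ _ h
    refine (Nat.card_le_card_of_injective _ hinj).trans ?_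
    rw [Nat.card_prod, hfl.card₂, hZc, ← pow_succ]
  have hDF : D ≤ F := inf_le_left
  have hidx : Nat.card ↥F = Nat.card (↥F ⧸ D.subgroupOf F) * Nat.card ↥D := by
    rw [Subgroup.card_eq_card_quotient_mul_card_subgroup (D.subgroupOf F),
      Nat.card_congr (Subgroup.subgroupOfEquivOfLe hDF).toEquiv]
  obtain ⟨d, hdc⟩ := (ea_isPGroup (PLocal.isEA_mono hF hDF)).exists_card_eq
  have hd3 : d ≤ 3 := by
    have := Subgroup.card_le_of_le (inf_le_right : D ≤ A)
    rw [hdc, hfl.card] at this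
    exact (Nat.pow_le_pow_iff_right hp.out.one_lt).mp this
  have hd3' : d ≠ 3 := by
    intro h
    have hDA : D = A := Subgroup.eq_of_le_of_card_ge inf_le_right (by rw [hdc, h, hfl.card])
    have hAF : A ≤ F := hDA ▸ hDF
    have hFA : F ≤ A := fun e he => hfl.alperin e
      (mem_centralizer_iff.mpr fun a ha => PLocal.comm_of_EA hF (hAF ha) he) (hF.2 e he)
    have := Subgroup.card_le_of_le hFA
    rw [hFc, hfl.card] at this
    exact absurd this (not_le.mpr (Nat.pow_lt_pow_right hp.out.one_lt (by norm_num)))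
  have hd2 : d = 2 := by
    by_contra hd2
    have hd : d ≤ 1 := by omega
    have hmul := hidx
    rw [hdc, hFc] at hmul
    have hd1 : d = 1 := by
      rcases Nat.eq_zero_or_pos d with h0 | h0
      · rw [h0, pow_zero, mul_one] at hmul
        rw [← hmul] at hq
        exact absurd hq (not_le.mpr (Nat.pow_lt_pow_right hp.out.one_lt (by norm_num)))
      · omega
    rw [hd1, pow_one, show p ^ 4 = p ^ 3 * p from pow_succ p 3] at hmul
    have hq' := Nat.eq_of_mul_eq_mul_right hp.out.pos hmul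
    have hinj : Function.Injective fun q : ↥F ⧸ D.subgroupOf F => f q.out := by
      intro a b h
      rw [← QuotientGroup.out_eq' a, ← QuotientGroup.out_eq' b, QuotientGroup.eq]
      exact hfib _ _ h
    have hsurj := ((Nat.bijective_iff_injective_and_card _).mpr ⟨hinj,
      by rw [← hq', Nat.card_prod, hfl.card₂, hZc, ← pow_succ]⟩).2
    obtain ⟨z, hz, hz1⟩ : ∃ z ∈ Z, z ≠ 1 := exists_ne_one_of_ne_bot fun h => by
      rw [h, Subgroup.card_bot] at hZc
      exact hp.out.one_lt.ne hZc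
    obtain ⟨q, hq1⟩ := hsurj (⟨a2, ha2⟩, ⟨1, one_mem _⟩)
    obtain ⟨r, hr1⟩ := hsurj (⟨1, one_mem _⟩, ⟨z, hz⟩)
    set e := ((q.out : ↥F) : P)
    set e' := ((r.out : ↥F) : P)
    have he3 : e * a3 * e⁻¹ = a2 * a3 :=
      mul_inv_eq_iff_eq_mul.mp (congrArg (fun w => ((w.1 : ↥A₂) : P)) hq1)
    have he2 : e * a2 * e⁻¹ = a2 := by
      have := mul_inv_eq_iff_eq_mul.mp (congrArg (fun w => ((w.2 : ↥Z) : P)) hq1)
      rwa [one_mul] at this
    have he'3 : e' * a3 * e'⁻¹ = a3 := by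
      have := mul_inv_eq_iff_eq_mul.mp (congrArg (fun w => ((w.1 : ↥A₂) : P)) hr1)
      rwa [one_mul] at this
    have he'2 : e' * a2 * e'⁻¹ = z * a2 :=
      mul_inv_eq_iff_eq_mul.mp (congrArg (fun w => ((w.2 : ↥Z) : P)) hr1)
    have hcomm : e * e' = e' * e := PLocal.comm_of_EA hF q.out.2 r.out.2
    have h1 : (e * e') * a3 * (e * e')⁻¹ = a2 * a3 := by
      rw [show (e * e') * a3 * (e * e')⁻¹ = e * (e' * a3 * e'⁻¹) * e⁻¹ by group, he'3, he3]
    have h2 : (e * e') * a3 * (e * e')⁻¹ = z * a2 * a3 := by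
      rw [hcomm, show (e' * e) * a3 * (e' * e)⁻¹ = e' * (e * a3 * e⁻¹) * e'⁻¹ by group, he3,
        show e' * (a2 * a3) * e'⁻¹ = (e' * a2 * e'⁻¹) * (e' * a3 * e'⁻¹) by group, he'2, he'3]
    rw [h1] at h2
    exact hz1 (mul_eq_right.mp (mul_right_cancel h2).symm)
  have hDc : Nat.card ↥D = p ^ 2 := hd2 ▸ hdc
  refine Subgroup.eq_of_le_of_card_ge (fun w hw => ?_) (by rw [hDc, hfl.card₂])
  · by_contra hw2
    obtain ⟨a, ha, haD⟩ : ∃ a ∈ A₂, a ∉ D := by
      by_contra! h
      exact hw2 ((Subgroup.eq_of_le_of_card_ge h (by rw [hDc, hfl.card₂])).ge hw)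
    have hAD := eq_sup_zpowers hfl.ea inf_le_right (by rw [hfl.card, hDc]; ring) (hfl.le ha) haD
    let g : ↥F → ↥Z := fun e =>
      ⟨(e : P) * a * (e : P)⁻¹ * a⁻¹, comm_mem_of_card hP hZ2 hcA2 _ ha⟩
    have hinj : Function.Injective fun q : ↥F ⧸ D.subgroupOf F => g q.out := by
      intro b c h
      rw [← QuotientGroup.out_eq' b, ← QuotientGroup.out_eq' c, QuotientGroup.eq]
      have ha' := mul_right_cancel (congrArg (fun w : ↥Z => (w : P)) h)
      set e := ((b.out : ↥F) : P)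
      set e' := ((c.out : ↥F) : P)
      have heF : e⁻¹ * e' ∈ F := mul_mem (inv_mem b.out.2) c.out.2
      have hca : Commute (e⁻¹ * e') a := by
        show e⁻¹ * e' * a = a * (e⁻¹ * e')
        calc e⁻¹ * e' * a = e⁻¹ * (e' * a * e'⁻¹) * e' := by group
          _ = e⁻¹ * (e * a * e⁻¹) * e' := by rw [ha']
          _ = a * (e⁻¹ * e') := by group
      refine (⟨heF, hfl.alperin _ ?_ (hF.2 _ heF)⟩ : e⁻¹ * e' ∈ D)
      rw [mem_centralizer_iff]
      exact fun t ht => (conj_eq_of_commute (S := D) (fun s hs => PLocal.comm_of_EA hF heF hs.1) hca t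
        (hAD ▸ ht)).eq.symm
    have hle := Nat.card_le_card_of_injective _ hinj
    have hmul := hidx
    rw [hDc, hFc, show p ^ 4 = p ^ 2 * p ^ 2 by ring] at hmul
    rw [← Nat.eq_of_mul_eq_mul_right (pow_pos hp.out.pos 2) hmul, hZc] at hle
    exact absurd hle (not_le.mpr (lt_self_pow₀ hp.out.one_lt one_lt_two))

/-- A `p`-group of rank at least four, `p` odd, has a normal elementary abelian subgroup of order
`p ^ 4`. -/
theorem exists_normal_ea_four.{u} (hp2 : p ≠ 2) : ∀ (n : ℕ) {P : Type u} [Group P] [Finite P],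
    Nat.card P ≤ n → IsPGroup p P → (∃ E : Subgroup P, Cfsg.IsElementaryAbelian p E ∧ p ^ 4 ≤ Nat.card ↥E) →
    ∃ E : Subgroup P, E.Normal ∧ Cfsg.IsElementaryAbelian p E ∧ Nat.card ↥E = p ^ 4 := by
  intro n
  induction n with
  | zero => exact fun h => absurd h (not_le.mpr Nat.card_pos)
  | succ n ih =>
    intro P _ _ hn hP hex
    haveI := hP.isNilpotent
    obtain ⟨E₀, hE₀, hE₀c⟩ := hex
    by_cases htop : E₀ = ⊤
    · subst htop
      obtain ⟨M, hM, hMle, hMc⟩ := Cfsg.Agent.Transfer.PNormal.exists_normal_card hP (N := (⊤ : Subgroup P))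
        inferInstance 4 hE₀c
      exact ⟨M, hM, PLocal.isEA_mono hE₀ hMle, hMc⟩
    obtain ⟨M, hEM, hMmax⟩ := (Set.toFinite {M : Subgroup P | M < ⊤}).exists_le_maximal
      (a := E₀) (lt_top_iff_ne_top.mpr htop)
    have hMco : IsCoatom M := ⟨hMmax.1.ne, fun K hK => by
      by_contra hne
      exact hK.not_ge (hMmax.2 (lt_top_iff_ne_top.mpr hne) hK.le)⟩
    haveI hMn : M.Normal := Subgroup.NormalizerCondition.normal_of_coatom M
      Group.normalizerCondition_of_isNilpotent hMco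
    have hMlt : Nat.card ↥M < Nat.card P :=
      lt_of_le_of_ne (Subgroup.card_le_card_group M) fun h => hMco.1 (Subgroup.eq_top_of_card_eq M h)
    obtain ⟨E₁, hE₁n, hE₁, hE₁c⟩ := ih (by omega) (hP.to_subgroup M)
      ⟨E₀.subgroupOf M, PLocal.isEA_comap hE₀ M.subtype M.subtype_injective, by
        rw [Nat.card_congr (Subgroup.subgroupOfEquivOfLe hEM).toEquiv]; exact hE₀c⟩
    set E := E₁.map M.subtype with hEdef
    have hE : Cfsg.IsElementaryAbelian p E := PLocal.isEA_map hE₁ _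
    have hEc : Nat.card ↥E = p ^ 4 := by rw [hEdef, Core.card_map_subtype, hE₁c]
    have hEM' : E ≤ M := Subgroup.map_subtype_le _
    -- the conjugates of `E` are normal in `M`
    have hconj : ∀ g : P, ∀ m ∈ M, ∀ x ∈ E, m * (g * x * g⁻¹) * m⁻¹ ∈ E.map (MulAut.conj g).toMonoidHom := by
      intro g m hm x hx
      obtain ⟨x', hx', rfl⟩ := hx
      have hm' : g⁻¹ * m * g ∈ M := by simpa using hMn.conj_mem m hm g⁻¹
      refine ⟨_, ⟨⟨_, hm'⟩ * x' * (⟨_, hm'⟩)⁻¹, hE₁n.conj_mem x' hx' _, rfl⟩, ?_⟩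
      simp [mul_assoc]
    -- a maximal normal elementary abelian subgroup
    obtain ⟨A, -, ⟨hAn, hA⟩, hAmax⟩ := (Set.toFinite
      {B : Subgroup P | B.Normal ∧ Cfsg.IsElementaryAbelian p B}).exists_le_maximal (a := ⊥)
      ⟨inferInstance, ⟨inferInstance, fun a ha => by rw [mem_bot.mp ha, one_pow]⟩⟩
    haveI := hAn
    have hmax : ∀ B : Subgroup P, B.Normal → Cfsg.IsElementaryAbelian p B → A ≤ B → B = A :=
      fun C hC hC' hle => le_antisymm (hAmax ⟨hC, hC'⟩ hle) hle
    by_cases hA4 : p ^ 4 ≤ Nat.card ↥A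
    · obtain ⟨K, hK, hKA, hKc⟩ := Cfsg.Agent.Transfer.PNormal.exists_normal_card hP hAn 4 hA4
      exact ⟨K, hK, PLocal.isEA_mono hA hKA, hKc⟩
    have hr : ¬ Cfsg.PRankLE p 2 P := fun h => by
      have := h E hE.1 hE.2
      rw [hEc] at this
      exact absurd this (not_le.mpr (Nat.pow_lt_pow_right hp.out.one_lt (by norm_num)))
    have hA2c := OddLocal.RankTwo.card_maximal_normal_ea hp2 hP hr hAn hA hmax
    have hA3 : Nat.card ↥A = p ^ 3 := by
      obtain ⟨k, hk⟩ := (ea_isPGroup hA).exists_card_eq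
      rw [hk] at hA2c hA4 ⊢
      have h1 := (Nat.pow_lt_pow_iff_right hp.out.one_lt).mp hA2c
      have h2 : k < 4 := (Nat.pow_lt_pow_iff_right hp.out.one_lt).mp (not_le.mp hA4)
      rw [show k = 3 by omega]
    obtain ⟨A₂, hA₂n, hA₂A, hA₂c⟩ := Cfsg.Agent.Transfer.PNormal.exists_normal_card hP hAn 2
      (by rw [hA3]; exact Nat.pow_le_pow_right hp.out.pos (by norm_num))
    haveI := hA₂n
    have hfl : Flag A A₂ p := ⟨hAn, hA₂n, hA₂A, hA, hA3, hA₂c,
      fun x hx hxp => OddLocal.RankTwo.mem_of_maximal_normal_ea hp2 hP hAn hA hmax hx hxp⟩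
    let cE : P → Subgroup P := fun g => E.map (MulAut.conj g).toMonoidHom
    have hcE : ∀ g, Cfsg.IsElementaryAbelian p (cE g) := fun g => PLocal.isEA_map hE _
    have hcEc : ∀ g, Nat.card ↥(cE g) = p ^ 4 := fun g => by
      rw [Subgroup.card_map_of_injective (MulAut.conj g).injective, hEc]
    have hinf : ∀ g, cE g ⊓ A = A₂ := fun g => hfl.inf_eq hP (hcE g) (hcEc g)
    have hA₂le : ∀ g, A₂ ≤ cE g := fun g => (hinf g).ge.trans inf_le_left
    have hcM : ∀ g, cE g ≤ M := fun g => by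
      rintro _ ⟨x, hx, rfl⟩
      exact hMn.conj_mem x (hEM' hx) g
    have hcA₂ : ∀ g, ∀ f ∈ cE g, ∀ a ∈ A₂, Commute f a := fun g f hf a ha =>
      PLocal.comm_of_EA (hcE g) hf (hA₂le g ha)
    have hflag : ∀ f : P, ∀ a ∈ A, f * a * f⁻¹ * a⁻¹ ∈ A₂ := fun f a ha =>
      comm_mem_of_card hP hA₂A (by rw [hA3, hA₂c]; ring) f ha
    -- two conjugates commute modulo `A₂`
    have hcc : ∀ g h, ∀ f ∈ cE g, ∀ f' ∈ cE h, f * f' * f⁻¹ * f'⁻¹ ∈ A₂ := by
      intro g h f hf f' hf'
      set c := f * f' * f⁻¹ * f'⁻¹ with hc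
      have h1 : c ∈ cE g := by
        rw [hc, show f * f' * f⁻¹ * f'⁻¹ = f * (f' * f⁻¹ * f'⁻¹) by group]
        obtain ⟨x, hx, hxe⟩ := inv_mem hf
        exact mul_mem hf (hxe ▸ hconj g f' (hcM h hf') x hx)
      have h2 : c ∈ cE h := by
        obtain ⟨x, hx, hxe⟩ := id hf'
        exact mul_mem (hxe ▸ hconj h f (hcM g hf) x hx) (inv_mem hf')
      rw [← hinf g]
      refine ⟨h1, hfl.alperin c ?_ ((hcE g).2 c h1)⟩
      rw [mem_centralizer_iff]
      intro a ha
      -- `f` and `f'` act by commuting translations on `A`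
      have u1 := hflag f a ha
      have u2 := hflag f' a ha
      set u := f * a * f⁻¹ * a⁻¹ with hu
      set v := f' * a * f'⁻¹ * a⁻¹ with hv
      have e1 : f * a * f⁻¹ = u * a := by rw [hu]; group
      have e2 : f' * a * f'⁻¹ = v * a := by rw [hv]; group
      have hfu : f' * u * f'⁻¹ = u := by rw [(hcA₂ h f' hf' u u1).eq, mul_inv_cancel_right]
      have hfv : f * v * f⁻¹ = v := by rw [(hcA₂ g f hf v u2).eq, mul_inv_cancel_right]
      have huv : Commute u v := PLocal.comm_of_EA hA (hA₂A u1) (hA₂A u2)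
      have k1 : (f * f') * a * (f * f')⁻¹ = v * u * a := by
        rw [show (f * f') * a * (f * f')⁻¹ = f * (f' * a * f'⁻¹) * f⁻¹ by group, e2,
          show f * (v * a) * f⁻¹ = (f * v * f⁻¹) * (f * a * f⁻¹) by group, hfv, e1, ← mul_assoc v u a]
      have k2 : (f' * f) * a * (f' * f)⁻¹ = u * v * a := by
        rw [show (f' * f) * a * (f' * f)⁻¹ = f' * (f * a * f⁻¹) * f'⁻¹ by group, e1,
          show f' * (u * a) * f'⁻¹ = (f' * u * f'⁻¹) * (f' * a * f'⁻¹) by group, hfu, e2, ← mul_assoc u v a]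
      rw [← huv.eq, ← k2] at k1
      have hcdef : f * f' = c * (f' * f) := by rw [hc]; group
      rw [hcdef] at k1
      set w := (f' * f) * a * (f' * f)⁻¹
      have hwc : c * w = w * c := by
        have : c * w * c⁻¹ = w :=
          (show c * w * c⁻¹ = c * (f' * f) * a * (c * (f' * f))⁻¹ by simp only [w]; group).trans k1
        exact mul_inv_eq_iff_eq_mul.mp this
      -- `w = u v a` and `c` commutes with `u v`
      have hcuv : Commute c (u * v) := hcA₂ g c h1 _ (mul_mem u1 u2)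
      have hca : Commute c a := by
        have h' : Commute c (u * v * a) := by rw [← k2]; exact hwc
        have := hcuv.inv_right.mul_right h'
        rwa [inv_mul_cancel_left] at this
      exact hca.eq.symm
    -- exponent `p`
    set S : Set P := (A : Set P) ∪ ⋃ g, (cE g : Set P) with hS
    have hexp : ∀ h ∈ Subgroup.closure S, h ^ p = 1 := by
      refine pow_eq_one_of_closure hp2 (Z := A₂) ?_ (fun z hz => hA.2 z (hA₂A hz)) ?_ ?_
      · rintro s (hs | hs)
        · exact hA.2 s hs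
        · obtain ⟨g, hg⟩ := Set.mem_iUnion.mp hs
          exact (hcE g).2 s hg
      · intro z hz
        rw [mem_centralizer_iff]
        rintro s (hs | hs)
        · exact PLocal.comm_of_EA hA hs (hA₂A hz)
        · obtain ⟨g, hg⟩ := Set.mem_iUnion.mp hs
          exact (hcA₂ g s hg z hz).eq
      · rintro s (hs | hs) t (ht | ht)
        · rw [show s * t * s⁻¹ * t⁻¹ = 1 by rw [PLocal.comm_of_EA hA hs ht]; group]
          exact one_mem _
        · obtain ⟨g, hg⟩ := Set.mem_iUnion.mp ht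
          have := inv_mem (hflag t s hs)
          rwa [show (t * s * t⁻¹ * s⁻¹)⁻¹ = s * t * s⁻¹ * t⁻¹ by group] at this
        · exact hflag s t ht
        · obtain ⟨g, hg⟩ := Set.mem_iUnion.mp hs
          obtain ⟨h, hh⟩ := Set.mem_iUnion.mp ht
          exact hcc g h s hg t hh
    set E' := cE 1 with hE'
    have hE'eq : E' = E := by
      ext x
      simp [hE', cE]
    set T := A ⊔ E with hT
    have hEle : ∀ g, cE g ≤ T := by
      intro g f hf
      obtain ⟨a3, ha3, ha3A⟩ : ∃ a ∈ A, a ∉ A₂ := by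
        by_contra! h
        have := Subgroup.card_le_of_le h
        rw [hA3, hA₂c] at this
        exact absurd this (not_le.mpr (Nat.pow_lt_pow_right hp.out.one_lt (by norm_num)))
      have hAeq := eq_sup_zpowers hA hA₂A (by rw [hA3, hA₂c]; ring) ha3 ha3A
      let φ : ↥E ⧸ A₂.subgroupOf E → ↥A₂ := fun q =>
        ⟨((q.out : ↥E) : P) * a3 * ((q.out : ↥E) : P)⁻¹ * a3⁻¹, hflag _ _ ha3⟩
      have hA₂E : A₂ ≤ E := hE'eq ▸ hA₂le 1
      have hinjφ : Function.Injective φ := by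
        intro b c hbc
        rw [← QuotientGroup.out_eq' b, ← QuotientGroup.out_eq' c, QuotientGroup.eq]
        have ha' := mul_right_cancel (congrArg (fun w : ↥A₂ => (w : P)) hbc)
        set e := ((b.out : ↥E) : P)
        set e' := ((c.out : ↥E) : P)
        have heF : e⁻¹ * e' ∈ E := mul_mem (inv_mem b.out.2) c.out.2
        have hca : Commute (e⁻¹ * e') a3 := by
          show e⁻¹ * e' * a3 = a3 * (e⁻¹ * e')
          calc e⁻¹ * e' * a3 = e⁻¹ * (e' * a3 * e'⁻¹) * e' := by group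
            _ = e⁻¹ * (e * a3 * e⁻¹) * e' := by rw [ha']
            _ = a3 * (e⁻¹ * e') := by group
        have hm : e⁻¹ * e' ∈ cE 1 ⊓ A := ⟨hE'eq.ge heF, hfl.alperin _ (mem_centralizer_iff.mpr
          fun t ht => (conj_eq_of_commute (fun s hs => PLocal.comm_of_EA hE heF (hA₂E hs)) hca t
            (hAeq ▸ ht)).eq.symm) (hE.2 _ heF)⟩
        rw [hinf] at hm
        exact hm
      have hcq : Nat.card (↥E ⧸ A₂.subgroupOf E) = p ^ 2 := by
        have := Subgroup.card_eq_card_quotient_mul_card_subgroup (A₂.subgroupOf E)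
        rw [Nat.card_congr (Subgroup.subgroupOfEquivOfLe hA₂E).toEquiv, hA₂c, hEc,
          show p ^ 4 = p ^ 2 * p ^ 2 by ring] at this
        exact (Nat.eq_of_mul_eq_mul_right (pow_pos hp.out.pos 2) this).symm
      obtain ⟨q, hq⟩ := ((Nat.bijective_iff_injective_and_card φ).mpr
        ⟨hinjφ, by rw [hcq, hA₂c]⟩).2 ⟨f * a3 * f⁻¹ * a3⁻¹, hflag f a3 ha3⟩
      set e := ((q.out : ↥E) : P)
      have heq : e * a3 * e⁻¹ = f * a3 * f⁻¹ := mul_right_cancel (congrArg Subtype.val hq)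
      have hek : e⁻¹ * f ∈ A := by
        have hcS : e⁻¹ * f ∈ Subgroup.closure S := mul_mem
          (inv_mem (Subgroup.subset_closure (Or.inr (Set.mem_iUnion.mpr ⟨1, hE'eq.ge q.out.2⟩))))
          (Subgroup.subset_closure (Or.inr (Set.mem_iUnion.mpr ⟨g, hf⟩)))
        refine hfl.alperin _ ?_ (hexp _ hcS)
        rw [mem_centralizer_iff]
        intro t ht
        refine (conj_eq_of_commute (fun s hs => ?_) ?_ t (hAeq ▸ ht)).eq.symm
        · exact (show Commute e s from PLocal.comm_of_EA hE q.out.2 (hA₂E hs)).inv_left.mul_left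
            (hcA₂ g f hf s hs)
        · show e⁻¹ * f * a3 = a3 * (e⁻¹ * f)
          calc e⁻¹ * f * a3 = e⁻¹ * (f * a3 * f⁻¹) * f := by group
            _ = e⁻¹ * (e * a3 * e⁻¹) * f := by rw [heq]
            _ = a3 * (e⁻¹ * f) := by group
      have := mul_mem (show e ∈ T from mem_sup_right q.out.2) (show e⁻¹ * f ∈ T from mem_sup_left hek)
      rwa [mul_inv_cancel_left] at this
    have hTc : Nat.card ↥T = p ^ 5 := by
      have h1 := card_mul_relIndex' (le_sup_left : A ≤ T)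
      rw [Subgroup.relIndex_sup_left] at h1
      have h2 := card_mul_relIndex' (inf_le_right : A ⊓ E ≤ E)
      rw [Subgroup.inf_relIndex_right, inf_comm, show E ⊓ A = A₂ from hE'eq ▸ hinf 1, hA₂c, hEc,
        show p ^ 4 = p ^ 2 * p ^ 2 by ring] at h2
      rw [← h1, hA3, Nat.eq_of_mul_eq_mul_left (pow_pos hp.out.pos 2) h2]
      ring
    refine ⟨E, ⟨fun x hx g => ?_⟩, hE, hEc⟩
    have hfT := hEle g (show g * x * g⁻¹ ∈ cE g from ⟨x, hx, rfl⟩)
    rw [Subgroup.mem_sup_of_normal_left] at hfT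
    obtain ⟨a, ha, e, he, hae⟩ := hfT
    have hA₂E : A₂ ≤ E := hE'eq ▸ hA₂le 1
    by_cases ha2 : a ∈ A₂
    · rw [← hae]; exact mul_mem (hA₂E ha2) he
    exfalso
    -- an element of both conjugates outside `A₂`
    obtain ⟨d, hd, hdA⟩ : ∃ d ∈ cE g ⊓ E, d ∉ A₂ := by
      by_contra! h
      have hc2 := Subgroup.card_le_of_le h
      have h1 := card_mul_relIndex' (inf_le_left : cE g ⊓ E ≤ cE g)
      rw [Subgroup.inf_relIndex_left, hcEc] at h1
      have h2 := card_mul_relIndex' (le_sup_right : E ≤ T)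
      rw [hTc, hEc, pow_succ p 4] at h2
      have h3 : E.relIndex (cE g) ≤ p := by
        rw [← Nat.eq_of_mul_eq_mul_left (pow_pos hp.out.pos 4) h2]
        exact Subgroup.relIndex_le_of_le_right (hEle g) Subgroup.index_ne_zero_of_finite
      rw [hA₂c] at hc2
      have h4 := Nat.mul_le_mul hc2 h3
      rw [h1, ← pow_succ] at h4
      exact absurd h4 (not_le.mpr (Nat.pow_lt_pow_right hp.out.one_lt (by norm_num)))
    have hdE : d ∈ E := hd.2
    have hdf : Commute d (g * x * g⁻¹) := PLocal.comm_of_EA (hcE g) hd.1 ⟨x, hx, rfl⟩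
    have hda : Commute d a := by
      rw [← hae] at hdf
      have := hdf.mul_right ((show Commute d e from PLocal.comm_of_EA hE hdE he).inv_right)
      rwa [mul_inv_cancel_right] at this
    apply hdA
    have hm : d ∈ cE 1 ⊓ A := ⟨hE'eq.ge hdE, hfl.alperin d (mem_centralizer_iff.mpr fun t ht =>
      (conj_eq_of_commute (fun s hs => PLocal.comm_of_EA hE hdE (hA₂E hs)) hda t
        ((eq_sup_zpowers hA hA₂A (by rw [hA3, hA₂c]; ring) ha ha2) ▸ ht)).eq.symm) (hE.2 d hdE)⟩
    rwa [hinf] at hm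

/-- An element of order three acting on an elementary abelian 3-group fixes at least the cube
root of its order. -/
theorem card_le_fixed_cube {V : Subgroup P} (hV : Cfsg.IsElementaryAbelian 3 V) {x : P}
    (hx : x ∈ normalizer (V : Set P)) (hx3 : x ^ 3 = 1) :
    Nat.card ↥V ≤ Nat.card ↥(V ⊓ centralizer ({x} : Set P)) ^ 3 := by
  have hcomm : ∀ a ∈ V, ∀ b ∈ V, a * b = b * a := fun a ha b hb => PLocal.comm_of_EA hV ha hb
  have hcx : ∀ v ∈ V, x * v * x⁻¹ ∈ V := fun v hv => (mem_normalizer_iff.mp hx v).mp hv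
  let δ : ↥V →* ↥V := MonoidHom.mk'
    (fun v => ⟨x * v * x⁻¹ * (v : P)⁻¹, mul_mem (hcx v v.2) (inv_mem v.2)⟩) fun a b => Subtype.ext (by
    show x * (a * b : P) * x⁻¹ * (a * b : P)⁻¹ = x * a * x⁻¹ * (a : P)⁻¹ * (x * b * x⁻¹ * (b : P)⁻¹)
    calc x * (a * b : P) * x⁻¹ * (a * b : P)⁻¹
        = x * a * x⁻¹ * ((x * b * x⁻¹ * (b : P)⁻¹) * (a : P)⁻¹) := by group
      _ = x * a * x⁻¹ * ((a : P)⁻¹ * (x * b * x⁻¹ * (b : P)⁻¹)) := by
          rw [hcomm _ (mul_mem (hcx b b.2) (inv_mem b.2)) _ (inv_mem a.2)]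
      _ = _ := by group)
  have hδ3 : ∀ v : ↥V, δ (δ (δ v)) = 1 := by
    intro v
    let c : ↥V →* ↥V := MonoidHom.mk' (fun v => ⟨x * v * x⁻¹, hcx v v.2⟩) fun a b => Subtype.ext (by
      show x * (a * b : P) * x⁻¹ = x * a * x⁻¹ * (x * b * x⁻¹); group)
    have hδc : ∀ w, δ w = c w * w⁻¹ := fun w => rfl
    have hc3 : c (c (c v)) = v := Subtype.ext (by
      show x * (x * (x * v * x⁻¹) * x⁻¹) * x⁻¹ = v
      calc x * (x * (x * v * x⁻¹) * x⁻¹) * x⁻¹ = (x * (x * x)) * v * (x * (x * x))⁻¹ := by group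
        _ = v := by rw [← pow_three, hx3, one_mul, inv_one, mul_one])
    haveI := hV.1
    letI : CommGroup ↥V := { (inferInstance : Group ↥V) with mul_comm := mul_comm' }
    have h3 : ∀ w : ↥V, w ^ 3 = 1 := fun w => Subtype.ext (hV.2 w w.2)
    rw [hδc, hδc, hδc]
    simp only [map_mul, map_inv, hc3]
    rw [cube_identity, inv_pow, h3, h3, inv_one, one_mul]
  have hk : Nat.card ↥δ.ker ≤ Nat.card ↥(V ⊓ centralizer ({x} : Set P)) := by
    let g : ↥δ.ker → ↥(V ⊓ centralizer ({x} : Set P)) := fun v => ⟨((v : ↥V) : P), (v : ↥V).2,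
      mem_centralizer_singleton_iff.mpr (by
        have := congrArg Subtype.val (MonoidHom.mem_ker.mp v.2)
        exact (mul_inv_eq_iff_eq_mul.mp (mul_inv_eq_one.mp this)).symm)⟩
    exact Nat.card_le_card_of_injective g fun a b h => Subtype.ext (Subtype.ext (congrArg Subtype.val h :))
  -- `|S| ≤ |ker| * |δ S|`
  have step : ∀ S : Subgroup ↥V, Nat.card ↥S ≤ Nat.card ↥δ.ker * Nat.card ↥(S.map δ) := by
    intro S
    have h1 := Subgroup.card_eq_card_quotient_mul_card_subgroup ((δ.domRestrict S).ker)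
    rw [h1, Nat.card_congr (QuotientGroup.quotientKerEquivRange (δ.domRestrict S)).toEquiv,
      MonoidHom.domRestrict_range, mul_comm]
    refine Nat.mul_le_mul_right _ ?_
    exact Nat.card_le_card_of_injective (fun v => (⟨((v : ↥S) : ↥V), v.2⟩ : ↥δ.ker))
      fun a b h => Subtype.ext (Subtype.ext (congrArg Subtype.val h :))
  have e0 := step ⊤
  rw [Subgroup.card_top] at e0
  have e1 := step ((⊤ : Subgroup ↥V).map δ)
  have e2 := step (((⊤ : Subgroup ↥V).map δ).map δ)
  have e3 : (((⊤ : Subgroup ↥V).map δ).map δ).map δ = ⊥ := by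
    rw [eq_bot_iff]
    rintro _ ⟨_, ⟨_, ⟨v, -, rfl⟩, rfl⟩, rfl⟩
    exact mem_bot.mpr (hδ3 v)
  rw [e3, Subgroup.card_bot, mul_one] at e2
  calc Nat.card ↥V ≤ Nat.card ↥δ.ker * (Nat.card ↥δ.ker * Nat.card ↥δ.ker) :=
        e0.trans (Nat.mul_le_mul_left _ (e1.trans (Nat.mul_le_mul_left _ e2)))
    _ = Nat.card ↥δ.ker ^ 3 := by ring
    _ ≤ _ := Nat.pow_le_pow_left hk 3

/-- The commuting graph on `E₉`'s of a 3-group of rank at least four is connected. -/
theorem isKConnected_three {P : Type*} [Group P] [Finite P] (hP : IsPGroup 3 P)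
    (hrk : ¬ Cfsg.PRankLE 3 3 P) : Cfsg.IsKConnected 3 2 P := by
  haveI : Fact (Nat.Prime 3) := ⟨Nat.prime_three⟩
  unfold Cfsg.PRankLE at hrk
  push Not at hrk
  obtain ⟨E, hEc, hEe, hE⟩ := hrk
  have hEea : Cfsg.IsElementaryAbelian 3 E := ⟨hEc, hEe⟩
  have hE4 : 3 ^ 4 ≤ Nat.card ↥E := by
    obtain ⟨k, hk⟩ := (ea_isPGroup hEea).exists_card_eq
    rw [hk] at hE ⊢
    exact Nat.pow_le_pow_right (by norm_num) ((Nat.pow_lt_pow_iff_right (by norm_num)).mp hE)
  obtain ⟨V, hVn, hV, hVc⟩ := exists_normal_ea_four (by norm_num : 3 ≠ 2) _ le_rfl hP ⟨E, hEea, hE4⟩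
  haveI := hVn
  have hr2 : ¬ Cfsg.PRankLE 3 2 P := fun h => by
    have := h V hV.1 hV.2
    rw [hVc] at this
    norm_num at this
  obtain ⟨U, -, -, -, hcomp⟩ := rankTwo_component hP hr2
  -- every vertex has centralizer of rank at least three
  have key : ∀ X : Subgroup P, Cfsg.IsElementaryAbelian 3 X → 3 ^ 2 ≤ Nat.card ↥X →
      ¬ Cfsg.PRankLE 3 2 ↥(centralizer (X : Set P)) := by
    intro X hX hX2 hr
    have big : ∀ Y : Subgroup P, Cfsg.IsElementaryAbelian 3 Y → Y ≤ centralizer (X : Set P) →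
        Nat.card ↥Y ≤ 3 ^ 2 := by
      intro Y hY hle
      have h := hr _ (PLocal.isEA_comap hY (centralizer (X : Set P)).subtype
        (centralizer (X : Set P)).subtype_injective).1 (PLocal.isEA_comap hY
        (centralizer (X : Set P)).subtype (centralizer (X : Set P)).subtype_injective).2
      change Nat.card ↥(Y.subgroupOf (centralizer (X : Set P))) ≤ 3 ^ 2 at h
      rwa [Nat.card_congr (Subgroup.subgroupOfEquivOfLe hle).toEquiv] at h
    have hXc : Nat.card ↥X = 3 ^ 2 := le_antisymm (big X hX fun a ha =>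
      mem_centralizer_iff.mpr fun b hb => PLocal.comm_of_EA hX hb ha) hX2
    have hnorm : ∀ g : P, g ∈ normalizer (V : Set P) := fun g => by
      rw [Subgroup.normalizer_eq_top_iff.mpr hVn]; exact mem_top g
    obtain ⟨x, hx, hxV⟩ : ∃ x ∈ X, x ∉ V := by
      by_contra! h
      have h' := big V hV fun v hv => mem_centralizer_iff.mpr fun b hb =>
        PLocal.comm_of_EA hV (h b hb) hv
      rw [hVc] at h'
      norm_num at h'
    have hxo : orderOf x = 3 := orderOf_eq_prime (hX.2 x hx) (fun e => hxV (e ▸ one_mem _))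
    set W := V ⊓ centralizer ({x} : Set P) with hW
    have hW2 : 3 ^ 2 ≤ Nat.card ↥W := by
      have h := card_le_fixed_cube hV (hnorm x) (hX.2 x hx)
      rw [hVc] at h
      obtain ⟨k, hk⟩ := (ea_isPGroup (PLocal.isEA_mono hV (inf_le_left : W ≤ V))).exists_card_eq
      rw [← hW, hk, ← pow_mul] at h
      rw [hk]
      exact Nat.pow_le_pow_right (by norm_num)
        (by have := (Nat.pow_le_pow_iff_right (by norm_num)).mp h; omega)
    have hWea : Cfsg.IsElementaryAbelian 3 W := PLocal.isEA_mono hV inf_le_left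
    -- it suffices to find `w` in `C_V(X)` outside `X`
    obtain ⟨w, hwV, hwX, hwc⟩ : ∃ w ∈ V, w ∉ X ∧ w ∈ centralizer (X : Set P) := by
      by_cases hint : X ⊓ V = ⊥
      · obtain ⟨y, hy, hyx⟩ : ∃ y ∈ X, y ∉ zpowers x := by
          by_contra! h
          have h' := Subgroup.card_le_of_le h
          rw [hXc, Nat.card_zpowers, hxo] at h'
          norm_num at h'
        have hyW : y ∈ normalizer (W : Set P) := by
          refine Subgroup.mem_normalizer_fintype fun v hv => ⟨?_, ?_⟩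
          · exact hVn.conj_mem v hv.1 y
          · refine mem_centralizer_singleton_iff.mpr ?_
            have hyc : Commute y x := PLocal.comm_of_EA hX hy hx
            have hvc : Commute v x := mem_centralizer_singleton_iff.mp hv.2
            exact ((hyc.mul_left hvc).mul_left hyc.inv_left).eq
        have h := card_le_fixed_cube hWea hyW (hX.2 y hy)
        have hne : W ⊓ centralizer ({y} : Set P) ≠ ⊥ := fun hb => by
          rw [hb, Subgroup.card_bot, one_pow] at h
          omega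
        obtain ⟨w, hw, hw1⟩ := exists_ne_one_of_ne_bot hne
        refine ⟨w, hw.1.1, fun hwX => hw1 (mem_bot.mp (hint ▸ (⟨hwX, hw.1.1⟩ : w ∈ X ⊓ V))), ?_⟩
        have hXeq : X = zpowers x ⊔ zpowers y := eq_sup_zpowers hX (zpowers_le.mpr hx)
          (by rw [hXc, Nat.card_zpowers, hxo]; norm_num) hy hyx
        rw [mem_centralizer_iff]
        intro t ht
        exact (conj_eq_of_commute (x := w) (S := zpowers x) (fun s hs => by
          obtain ⟨i, rfl⟩ := mem_zpowers_iff.mp hs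
          exact (show Commute w x from mem_centralizer_singleton_iff.mp hw.1.2).zpow_right i)
          (mem_centralizer_singleton_iff.mp hw.2) t (hXeq ▸ ht)).eq.symm
      · obtain ⟨z, hz, hz1⟩ := exists_ne_one_of_ne_bot hint
        have hzo : orderOf z = 3 := orderOf_eq_prime (hX.2 z hz.1) hz1
        have hxz : x ∉ zpowers z := fun h => hxV (zpowers_le.mpr hz.2 h)
        have hXeq : X = zpowers z ⊔ zpowers x := eq_sup_zpowers hX (zpowers_le.mpr hz.1)
          (by rw [hXc, Nat.card_zpowers, hzo]; norm_num) hx hxz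
        obtain ⟨w, hw, hwz⟩ : ∃ w ∈ W, w ∉ zpowers z := by
          by_contra! h
          have h' := hW2.trans (Subgroup.card_le_of_le h)
          rw [Nat.card_zpowers, hzo] at h'
          norm_num at h'
        refine ⟨w, hw.1, fun hwX => ?_, ?_⟩
        · rw [hXeq] at hwX
          apply hxV
          have hzle : zpowers z ⊔ zpowers w ≤ X ⊓ V := sup_le (zpowers_le.mpr ⟨hz.1, hz.2⟩)
            (zpowers_le.mpr ⟨hXeq ▸ hwX, hw.1⟩)
          have hcard : Nat.card ↥X ≤ Nat.card ↥(X ⊓ V) := by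
            refine le_trans ?_ (Subgroup.card_le_of_le hzle)
            rw [ea_card_sup_zpowers hX (zpowers_le.mpr hz.1) (hXeq ▸ hwX) hwz, Nat.card_zpowers,
              hzo, hXc]
            norm_num
          exact ((Subgroup.eq_of_le_of_card_ge inf_le_left hcard).ge hx).2
        · rw [mem_centralizer_iff]
          intro t ht
          exact (conj_eq_of_commute (x := w) (S := zpowers z) (fun s hs => PLocal.comm_of_EA hV hw.1
            (zpowers_le.mpr hz.2 hs)) (mem_centralizer_singleton_iff.mp hw.2) t (hXeq ▸ ht)).eq.symm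
    have hY := ea_sup_of_commute hX (OddLocal.RankTwo.ea_zpowers (hV.2 w hwV)) fun a ha b hb => by
      obtain ⟨i, rfl⟩ := mem_zpowers_iff.mp hb
      exact (show Commute a w from mem_centralizer_iff.mp hwc a ha).zpow_right i
    have hle := big _ hY (sup_le (fun a ha => mem_centralizer_iff.mpr fun b hb =>
      PLocal.comm_of_EA hX hb ha) (zpowers_le.mpr hwc))
    rw [ea_card_sup_zpowers hY le_sup_left (mem_sup_right (mem_zpowers w)) hwX, hXc] at hle
    norm_num at hle
  intro X X' hX hX2 hX' hX2'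
  have h1 := (hcomp X hX hX2).mpr (key X hX hX2)
  have h2 := (hcomp X' hX' hX2').mpr (key X' hX' hX2')
  have hsym : ∀ {a b : Subgroup P}, Relation.ReflTransGen (fun A B : Subgroup P =>
      Cfsg.IsElementaryAbelian 3 A ∧ 3 ^ 2 ≤ Nat.card ↥A ∧ Cfsg.IsElementaryAbelian 3 B ∧
        3 ^ 2 ≤ Nat.card ↥B ∧ ∀ x ∈ A, ∀ y ∈ B, x * y = y * x) a b →
      Relation.ReflTransGen (fun A B : Subgroup P =>
      Cfsg.IsElementaryAbelian 3 A ∧ 3 ^ 2 ≤ Nat.card ↥A ∧ Cfsg.IsElementaryAbelian 3 B ∧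
        3 ^ 2 ≤ Nat.card ↥B ∧ ∀ x ∈ A, ∀ y ∈ B, x * y = y * x) b a := by
    intro a b h
    induction h with
    | refl => exact Relation.ReflTransGen.refl
    | tail _ h ih =>
      obtain ⟨e1, e2, e3, e4, e5⟩ := h
      exact Relation.ReflTransGen.head ⟨e3, e4, e1, e2, fun x hx y hy => (e5 y hy x hx).symm⟩ ih
  exact h1.trans (hsym h2)

end Cfsg.Agent.Components.RankFour
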