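import Cfsg.Prelude
import Cfsg.Agent.Components.Basic
import Cfsg.Agent.OddLocal.UniqueSubgroup
import Cfsg.Agent.S0225

/-! Quasisimple groups of 2-rank one. -/

set_option autoImplicit false

open Subgroup

namespace Cfsg.Agent.Components

/-- A quasisimple group of even order and 2-rank one has a central involution and generalized
quaternion Sylow 2-subgroups. -/
theorem quasisimple_rankOne {Q : Type*} [Group Q] [Finite Q] (hQ : Cfsg.IsQuasisimple Q)
    (heven : Even (Nat.card Q)) (hrk : Cfsg.PRankLE 2 1 Q) :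
    ∃ z : Q, orderOf z = 2 ∧ z ∈ center Q ∧
      ∃ S : Sylow 2 Q, ∃ n : ℕ, Nonempty (↥(S : Subgroup Q) ≃* QuaternionGroup (2 ^ (n + 1))) := by
  haveI : Fact (Nat.Prime 2) := ⟨Nat.prime_two⟩
  have hfour : ∀ E : Subgroup Q, ¬ IsKleinFour E := by
    intro E hE
    have h := hrk E ⟨⟨fun a b => mul_comm_of_exponent_two IsKleinFour.exponent_two a b⟩⟩ fun a ha => ?_
    · have h4 : Nat.card E = 4 := IsKleinFour.card_four
      omega
    · have h := Monoid.pow_exponent_eq_one (⟨a, ha⟩ : E)
      rw [IsKleinFour.exponent_two] at h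
      simpa using congrArg Subtype.val h
  obtain ⟨z, hz, N, hN, hNodd, hcomm⟩ := Cfsg.Agent.S0225.result heven hfour
  have hNc : N ≤ center Q := by
    refine (quasisimple_normal_eq_top_or_le_center hQ N).resolve_left fun htop => ?_
    rw [htop, Subgroup.card_top] at hNodd
    exact Nat.not_even_iff_odd.mpr hNodd heven
  have hzc : z ∈ center Q := by
    let φ : Q →* ↥(center Q) := MonoidHom.mk' (fun g => ⟨z * g * z⁻¹ * g⁻¹, hNc (hcomm g)⟩) <| by
      intro a b
      apply Subtype.ext
      show z * (a * b) * z⁻¹ * (a * b)⁻¹ = z * a * z⁻¹ * a⁻¹ * (z * b * z⁻¹ * b⁻¹)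
      have hb := Subgroup.mem_center_iff.mp (hNc (hcomm b)) a
      calc z * (a * b) * z⁻¹ * (a * b)⁻¹
          = z * a * z⁻¹ * (z * b * z⁻¹ * b⁻¹) * a⁻¹ := by group
        _ = z * a * z⁻¹ * a⁻¹ * (a * (z * b * z⁻¹ * b⁻¹)) * a⁻¹ := by group
        _ = z * a * z⁻¹ * a⁻¹ * (z * b * z⁻¹ * b⁻¹ * a) * a⁻¹ := by rw [hb]
        _ = z * a * z⁻¹ * a⁻¹ * (z * b * z⁻¹ * b⁻¹) := by group
    have hk : commutator Q ≤ φ.ker := by
      rw [_root_.commutator_def, Subgroup.commutator_le]
      intro a _ b _
      rw [MonoidHom.mem_ker, map_commutatorElement]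
      exact commutatorElement_eq_one_iff_mul_comm.mpr
        (Subtype.ext ((Subgroup.mem_center_iff.mp (φ a).2 _).symm))
    rw [quasisimple_commutator_top hQ] at hk
    rw [Subgroup.mem_center_iff]
    intro g
    have h1 : φ g = 1 := MonoidHom.mem_ker.mp (hk (mem_top g))
    have h : z * g * z⁻¹ * g⁻¹ = 1 := congrArg Subtype.val h1
    calc g * z = (z * g * z⁻¹ * g⁻¹) * g * z := by rw [h, one_mul]
      _ = z * g := by group
  have hz1 : z ≠ 1 := fun e => by simp [e] at hz
  have hzz : z ^ 2 = 1 := hz ▸ pow_orderOf_eq_one z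
  have huniq : ∀ s : Q, s ^ 2 = 1 → s ≠ 1 → s = z := by
    intro s hs hs1
    by_contra hne
    let A : Subgroup Q := Subgroup.closure {z, s}
    have hA : IsMulCommutative A := Subgroup.isMulCommutative_closure (k := {z, s}) <| by
      rintro a (rfl | rfl) b (rfl | rfl)
      all_goals first
        | rfl
        | exact (Subgroup.mem_center_iff.mp hzc _).symm
        | exact Subgroup.mem_center_iff.mp hzc _
    have hA2 : ∀ a ∈ A, a ^ 2 = 1 := by
      intro a ha
      induction ha using Subgroup.closure_induction with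
      | mem x hx => rcases hx with rfl | rfl <;> assumption
      | one => simp
      | mul x y hx hy h1 h2 =>
        have hc : Commute x y := congrArg Subtype.val (hA.is_comm.comm ⟨x, hx⟩ ⟨y, hy⟩)
        rw [hc.mul_pow, h1, h2, mul_one]
      | inv x _ h => rw [inv_pow, h, inv_one]
    have hz' : z ∈ A := Subgroup.subset_closure (Or.inl rfl)
    have hs' : s ∈ A := Subgroup.subset_closure (Or.inr rfl)
    have hle := hrk A hA hA2
    haveI := Fintype.ofFinite ↥A
    rw [Nat.card_eq_fintype_card, pow_one] at hle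
    have h3 : 2 < Fintype.card ↥A := Fintype.two_lt_card_iff.mpr
      ⟨1, ⟨z, hz'⟩, ⟨s, hs'⟩, fun e => hz1 (congrArg Subtype.val e).symm,
        fun e => hs1 (congrArg Subtype.val e).symm, fun e => hne (congrArg Subtype.val e).symm⟩
    omega
  refine ⟨z, hz, hzc, (default : Sylow 2 Q), ?_⟩
  let S : Sylow 2 Q := default
  have hncyc : ¬ IsCyclic ↥(S : Subgroup Q) := by
    intro hc
    have hmin : (Nat.card Q).minFac = 2 := (Nat.minFac_eq_two_iff _).mpr (even_iff_two_dvd.mp heven)
    have hcomp := hc.isComplement' hmin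
    let ψ := MonoidHom.transferSylow S (hc.normalizer_le_centralizer hmin)
    have hk : commutator Q ≤ ψ.ker := by
      rw [_root_.commutator_def, Subgroup.commutator_le]
      intro a _ b _
      rw [MonoidHom.mem_ker, map_commutatorElement]
      exact commutatorElement_eq_one_iff_mul_comm.mpr (hc.isMulCommutative.is_comm.comm _ _)
    rw [quasisimple_commutator_top hQ, top_le_iff] at hk
    have hc2 := hcomp.card_mul_card
    rw [show (MonoidHom.transferSylow S (hc.normalizer_le_centralizer hmin)).ker = ⊤ from hk,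
      Subgroup.card_top] at hc2
    have h1 : Nat.card ↥(S : Subgroup Q) = 1 :=
      Nat.eq_of_mul_eq_mul_left Nat.card_pos (hc2.trans (mul_one _).symm)
    have h2 := S.dvd_card_of_dvd_card (even_iff_two_dvd.mp heven)
    omega
  have hu : Cfsg.Agent.OddLocal.UniqueOrderP 2 ↥(S : Subgroup Q) := by
    intro a b ha hb ha1
    by_cases hb1 : b = 1
    · subst hb1; exact Subgroup.one_mem _
    have ha' : (a : Q) = z := huniq _ (by rw [← SubgroupClass.coe_pow, ha]; rfl) (by simpa using ha1)
    have hb' : (b : Q) = z := huniq _ (by rw [← SubgroupClass.coe_pow, hb]; rfl) (by simpa using hb1)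
    rw [show b = a from Subtype.ext (hb'.trans ha'.symm)]
    exact Subgroup.mem_zpowers a
  rcases Cfsg.Agent.OddLocal.isCyclic_or_quaternion S.isPGroup' hu with h | ⟨-, n, ⟨e⟩⟩
  · exact absurd h hncyc
  rcases n with _ | n
  · haveI := QuaternionGroup.quaternionGroup_one_isCyclic
    exact absurd (isCyclic_of_surjective (e.symm : QuaternionGroup (2 ^ 0) →* _) e.symm.surjective) hncyc
  · exact ⟨n, ⟨e⟩⟩

end Cfsg.Agent.Components
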